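import Cfsg.Agent.Lib.SecRank4.Step

/-!
# The layer below `Φ(P) / [Φ(P), P]Φ(P)²` vanishes
-/

set_option autoImplicit false

namespace Cfsg.Agent.Lib.SecRank4.Kill

open Cfsg.Agent.Lib.SecRank4.Sect Cfsg.Agent.Lib.SecRank4.Layers Cfsg.Agent.Lib.SecRank4.Step
open Cfsg.Agent.Lib.PGroups.CentralizerIndex (Sec card_le_of_sectional)

variable {X : Type*} [Group X] {P : Subgroup X} [hPn : P.Normal]

theorem kill [Finite X] (hsec : Cfsg.SectionalPRankLE 2 4 X) (hV16 : Nat.card (VV P) = 16)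
    {z : X} (hzD : z ∈ sqs P) (hzK : z ∉ nxt P (sqs P))
    (hDK : ∀ d ∈ sqs P, d ∈ nxt P (sqs P) ∨ z⁻¹ * d ∈ nxt P (sqs P))
    {y₀ y₁ : X} (hy₀ : y₀ ∈ P) (hy₁ : y₁ ∈ P)
    (hcz : z⁻¹ * (y₁ * y₀ * y₁⁻¹ * y₀⁻¹) ∈ nxt P (sqs P))
    (hinvL : ∀ L : Subgroup X, L.Normal → sqs P ≤ L → L ≤ P → L = sqs P ∨ L = P)
    (hfixv : ∀ y ∈ P, (∀ x : X, x * y * x⁻¹ * y⁻¹ ∈ sqs P) → y ∈ sqs P) :
    nxt P (sqs P) ≤ nxt P (nxt P (sqs P)) := by
  classical
  set D := sqs P with hD
  set K₀ := nxt P D with hK₀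
  set K₁ := nxt P K₀ with hK₁
  haveI hDn : D.Normal := inferInstance
  haveI hK₀n : K₀.Normal := inferInstance
  haveI hK₁n : K₁.Normal := inferInstance
  have hDP : D ≤ P := sqs_le P
  have hK₀D : K₀ ≤ D := nxt_le P D
  have hK₁K₀ : K₁ ≤ K₀ := nxt_le P K₀
  have hK₀P : K₀ ≤ P := hK₀D.trans hDP
  have hzP : z ∈ P := hDP hzD
  let π := QuotientGroup.mk' K₁
  have hπ1 : ∀ {a : X}, π a = 1 ↔ a ∈ K₁ := fun {a} => QuotientGroup.eq_one_iff a
  have hcenK : ∀ {k y : X}, k ∈ K₀ → y ∈ P → Commute (π k) (π y) := by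
    intro k y hk hy
    have h := comm_mem_nxt (P := P) hk hy
    have h1 : π (k * y * k⁻¹ * y⁻¹) = 1 := hπ1.mpr h
    simp only [map_mul, map_inv] at h1
    have h2 : π k * π y * (π k)⁻¹ = π y := mul_inv_eq_one.mp h1
    calc π k * π y = π k * π y * (π k)⁻¹ * π k := by group
      _ = π y * π k := by rw [h2]
  have hexpK : ∀ {k : X}, k ∈ K₀ → π k * π k = 1 := by
    intro k hk
    rw [← map_mul]
    exact hπ1.mpr (sq_mem_nxt hk)
  -- commutators with `z`
  have hcommz : ∀ y ∈ P, y * z * y⁻¹ * z⁻¹ ∈ K₀ := fun y hy => comm_D_P hzD hy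
  -- conjugates of `z`
  have hzconj : ∀ x : X, z⁻¹ * (x * z * x⁻¹) ∈ K₀ := by
    intro x
    rcases hDK _ (hDn.conj_mem z hzD x) with h | h
    · exfalso
      apply hzK
      have := hK₀n.conj_mem _ h x⁻¹
      have h2 : x⁻¹ * (x * z * x⁻¹) * x⁻¹⁻¹ = z := by group
      rwa [h2] at this
    · exact h
  -- modifying the second entry of a commutator by `K₀`
  have hmod : ∀ {y w k : X}, y ∈ P → w ∈ P → k ∈ K₀ →
      π (y * (w * k) * y⁻¹ * (w * k)⁻¹) = π (y * w * y⁻¹ * w⁻¹) := by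
    intro y w k hy hw hk
    simp only [map_mul, map_inv, mul_inv_rev]
    have c1 := hcenK hk hy
    have c2 := c1.inv_right
    calc π y * (π w * π k) * (π y)⁻¹ * ((π k)⁻¹ * (π w)⁻¹)
        = π y * π w * (π k * (π y)⁻¹) * (π k)⁻¹ * (π w)⁻¹ := by group
      _ = π y * π w * ((π y)⁻¹ * π k) * (π k)⁻¹ * (π w)⁻¹ := by rw [c2.eq]
      _ = π y * π w * (π y)⁻¹ * (π w)⁻¹ := by group
  -- the hom `y ↦ [y, z]`
  let f : P →* X ⧸ K₁ :=
    { toFun := fun y => π ((y : X) * z * (y : X)⁻¹ * z⁻¹)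
      map_one' := by
        simp only [OneMemClass.coe_one]
        rw [show (1 : X) * z * (1 : X)⁻¹ * z⁻¹ = 1 by group, map_one]
      map_mul' := by
        rintro ⟨a, ha⟩ ⟨b, hb⟩
        change π (a * b * z * (a * b)⁻¹ * z⁻¹) = π (a * z * a⁻¹ * z⁻¹) * π (b * z * b⁻¹ * z⁻¹)
        set k := b * z * b⁻¹ * z⁻¹ with hk
        have hkm : k ∈ K₀ := hcommz b hb
        have hkm' := hcommz a ha
        have h1 : a * b * z * (a * b)⁻¹ * z⁻¹ = a * k * z * a⁻¹ * z⁻¹ := by rw [hk]; group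
        rw [h1]
        have c1 := hcenK hkm ha
        have c2 := hcenK hkm (hK₀P hkm')
        simp only [map_mul, map_inv] at c2 ⊢
        calc π a * π k * π z * (π a)⁻¹ * (π z)⁻¹
            = (π a * π k) * π z * (π a)⁻¹ * (π z)⁻¹ := rfl
          _ = (π k * π a) * π z * (π a)⁻¹ * (π z)⁻¹ := by rw [c1.eq]
          _ = π k * (π a * π z * (π a)⁻¹ * (π z)⁻¹) := by group
          _ = (π a * π z * (π a)⁻¹ * (π z)⁻¹) * π k := c2.eq
      }
  have hf : ∀ (y : P), f y = π ((y : X) * z * (y : X)⁻¹ * z⁻¹) := fun _ => rfl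
  -- the invariance of `f` under conjugation
  have hfconj : ∀ (x y : X), y ∈ P →
      π ((x * y * x⁻¹) * z * (x * y * x⁻¹)⁻¹ * z⁻¹) =
        π x * π (y * z * y⁻¹ * z⁻¹) * (π x)⁻¹ := by
    intro x y hy
    set z' := x⁻¹ * z * x with hz'
    set k := z⁻¹ * z' with hk
    have hkm : k ∈ K₀ := by
      have := hzconj x⁻¹
      simpa [hk, hz'] using this
    have h1 : (x * y * x⁻¹) * z * (x * y * x⁻¹)⁻¹ * z⁻¹ = x * (y * (z * k) * y⁻¹ * (z * k)⁻¹) * x⁻¹ := by
      rw [hk, hz']; group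
    rw [h1]
    rw [map_mul, map_mul, map_inv, hmod hy hzP hkm]
  -- the subgroup `L`
  let L : Subgroup X := (f.ker).map P.subtype
  have memL : ∀ {y : X} (hy : y ∈ P), y ∈ L ↔ y * z * y⁻¹ * z⁻¹ ∈ K₁ := by
    intro y hy
    constructor
    · rintro ⟨w, hw, rfl⟩
      exact hπ1.mp hw
    · intro h
      exact ⟨⟨y, hy⟩, hπ1.mpr h, rfl⟩
  have hLP : L ≤ P := Subgroup.map_subtype_le _
  have hLn : L.Normal := by
    constructor
    intro y hy x
    have hyP := hLP hy
    rw [memL (hPn.conj_mem y hyP x)]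
    rw [← hπ1, hfconj x y hyP, hπ1.mpr ((memL hyP).mp hy)]
    group
  -- elements of `D`
  have hDform : ∀ d ∈ D, d ∈ K₀ ∨ ∃ k ∈ K₀, d = z * k := by
    intro d hd
    rcases hDK d hd with h | h
    · exact Or.inl h
    · exact Or.inr ⟨_, h, by group⟩
  have hDL : D ≤ L := by
    intro d hd
    rw [memL (hDP hd)]
    rcases hDform d hd with h | ⟨k, hk, rfl⟩
    · exact comm_mem_nxt (P := P) h hzP
    · rw [← hπ1]
      have c1 := hcenK hk hzP
      simp only [map_mul, map_inv, mul_inv_rev]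
      calc π z * π k * π z * ((π k)⁻¹ * (π z)⁻¹) * (π z)⁻¹
          = π z * (π k * π z) * (π k)⁻¹ * (π z)⁻¹ * (π z)⁻¹ := by group
        _ = π z * (π z * π k) * (π k)⁻¹ * (π z)⁻¹ * (π z)⁻¹ := by rw [c1.eq]
        _ = 1 := by group
  rcases hinvL L hLn hDL hLP with hLD | hLPe
  · -- `L = D`: a contradiction from the section bounds
    exfalso
    have hbase : Nat.card (VV P) * Nat.card D = Nat.card P := card_sc hDP
    rw [hV16] at hbase
    have hcardL : Nat.card f.ker = Nat.card D := by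
      rw [← hLD]
      exact Nat.card_congr (Subgroup.equivMapOfInjective f.ker _ (Subgroup.subtype_injective _)).toEquiv
    have hrange : Nat.card f.range = 16 := by
      have h1 := f.ker.card_mul_index
      rw [Subgroup.index_ker, hcardL, ← hbase] at h1
      have hpos : 0 < Nat.card D := Nat.card_pos
      have : Nat.card D * Nat.card f.range = Nat.card D * 16 := by rw [h1, mul_comm]
      exact Nat.eq_of_mul_eq_mul_left hpos this
    -- the section `K₀ / K₁`
    have hsecK : Sec K₀ K₁ := by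
      apply sec_of_sq hK₁K₀
      · exact fun k hk => sq_mem_nxt hk
      · exact fun h _ c hc => hK₁n.conj_mem c hc h
    have hb1 := card_le_of_sectional hsec hsecK
    have hY : Nat.card (Sc K₁ K₀) * Nat.card K₁ = Nat.card K₀ := card_sc hK₁K₀
    have hK₁pos : 0 < Nat.card K₁ := Nat.card_pos
    have hYle : Nat.card (Sc K₁ K₀) ≤ 16 := by
      rw [← hY] at hb1
      have : Nat.card (Sc K₁ K₀) * Nat.card K₁ ≤ 16 * Nat.card K₁ := by simpa using hb1
      exact Nat.le_of_mul_le_mul_right this hK₁pos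
    have hFY : f.range ≤ Sc K₁ K₀ := by
      rintro _ ⟨y, rfl⟩
      exact ⟨_, hcommz y y.2, rfl⟩
    have hFeq : f.range = Sc K₁ K₀ :=
      Subgroup.eq_of_le_of_card_ge hFY (by rw [hrange]; exact hYle)
    have hYcard : Nat.card (Sc K₁ K₀) = 16 := by rw [← hFeq]; exact hrange
    -- `z²` is hit by `f`
    have hzz : z * z ∈ K₀ := sq_mem_nxt hzD
    have hzzF : π (z * z) ∈ f.range := by
      rw [hFeq]
      exact ⟨_, hzz, rfl⟩
    obtain ⟨⟨y, hy⟩, hfy⟩ := hzzF
    have hfy' : π (y * z * y⁻¹ * z⁻¹) = π (z * z) := hfy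
    -- conjugates of `z²`
    have hzzconj : ∀ x : X, π x * π (z * z) * (π x)⁻¹ = π (z * z) := by
      intro x
      set k := z⁻¹ * (x * z * x⁻¹) with hk
      have hkm : k ∈ K₀ := hzconj x
      have h1 : x * z * x⁻¹ = z * k := by rw [hk]; group
      have h2 : π x * π (z * z) * (π x)⁻¹ = π ((x * z * x⁻¹) * (x * z * x⁻¹)) := by
        simp only [map_mul, map_inv]; group
      rw [h2, h1]
      have c1 := hcenK hkm hzP
      simp only [map_mul]
      calc π z * π k * (π z * π k) = π z * (π k * π z) * π k := by group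
        _ = π z * (π z * π k) * π k := by rw [c1.eq]
        _ = π z * π z * (π k * π k) := by group
        _ = π z * π z := by rw [hexpK hkm, mul_one]
    -- `y ∈ D`
    have hyD : y ∈ D := by
      apply hfixv y hy
      intro x
      have hxy := hPn.conj_mem y hy x
      have h1 : π ((x * y * x⁻¹) * z * (x * y * x⁻¹)⁻¹ * z⁻¹) = π (y * z * y⁻¹ * z⁻¹) := by
        rw [hfconj x y hy, hfy', hzzconj]
      -- so `x y x⁻¹ y⁻¹` is in the kernel
      have h2 : f (⟨x * y * x⁻¹, hxy⟩ * (⟨y, hy⟩ : P)⁻¹) = 1 := by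
        rw [map_mul, map_inv, hf, hf]
        change π ((x * y * x⁻¹) * z * (x * y * x⁻¹)⁻¹ * z⁻¹) * (π (y * z * y⁻¹ * z⁻¹))⁻¹ = 1
        rw [h1]
        group
      have h3 : x * y * x⁻¹ * y⁻¹ ∈ L := ⟨_, h2, rfl⟩
      rwa [hLD] at h3
    have hyL : y ∈ L := hDL hyD
    have hzzK₁ : z * z ∈ K₁ := by
      rw [← hπ1, ← hfy']
      exact hπ1.mpr ((memL hy).mp hyL)
    -- the section `D / K₁`
    have hsecD : Sec D K₁ := by
      apply sec_of_sq (hK₁K₀.trans hK₀D)
      · intro a ha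
        rcases hDform a ha with h | ⟨k, hk, rfl⟩
        · exact sq_mem_nxt h
        · rw [← hπ1]
          have c1 := hcenK hk hzP
          simp only [map_mul]
          calc π z * π k * (π z * π k) = π z * (π k * π z) * π k := by group
            _ = π z * (π z * π k) * π k := by rw [c1.eq]
            _ = π z * π z * (π k * π k) := by group
            _ = 1 := by rw [hexpK hk, mul_one, ← map_mul]; exact hπ1.mpr hzzK₁
      · exact fun h _ c hc => hK₁n.conj_mem c hc h
    have hb2 := card_le_of_sectional hsec hsecD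
    have hK₀card : Nat.card K₀ = 16 * Nat.card K₁ := by rw [← hY, hYcard]
    have hDK₀ : 2 * Nat.card K₀ ≤ Nat.card D := by
      obtain ⟨k, hk⟩ := Subgroup.card_dvd_of_le hK₀D
      have hpos : 0 < Nat.card D := Nat.card_pos
      have hk2 : k ≠ 1 := by
        rintro rfl
        rw [mul_one] at hk
        have heq : K₀ = D := Subgroup.eq_of_le_of_card_ge hK₀D hk.le
        exact hzK (heq ▸ hzD)
      have hk0 : k ≠ 0 := by
        rintro rfl
        omega
      rw [hk, mul_comm]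
      exact Nat.mul_le_mul_left _ (by omega)
    have : 32 * Nat.card K₁ ≤ 16 * Nat.card K₁ := by
      calc 32 * Nat.card K₁ = 2 * Nat.card K₀ := by rw [hK₀card]; ring
        _ ≤ Nat.card D := hDK₀
        _ ≤ 2 ^ 4 * Nat.card K₁ := hb2
        _ = 16 * Nat.card K₁ := by norm_num
    omega
  · -- `L = P`
    have hcomz : ∀ y ∈ P, Commute (π z) (π y) := by
      intro y hy
      have h1 : y ∈ L := hLPe ▸ hy
      have h2 : π (y * z * y⁻¹ * z⁻¹) = 1 := hπ1.mpr ((memL hy).mp h1)
      simp only [map_mul, map_inv] at h2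
      have h3 : π y * π z * (π y)⁻¹ = π z := mul_inv_eq_one.mp h2
      calc π z * π y = π y * π z * (π y)⁻¹ * π y := by rw [h3]
        _ = π y * π z := by group
    have hcenD : ∀ {d y : X}, d ∈ D → y ∈ P → Commute (π d) (π y) := by
      intro d y hd hy
      rcases hDform d hd with h | ⟨k, hk, rfl⟩
      · exact hcenK h hy
      · rw [map_mul]
        exact (hcomz y hy).mul_left (hcenK hk hy)
    -- `z² ∈ K₁`
    have hzzK₁ : z * z ∈ K₁ := by
      set c := y₁ * y₀ * y₁⁻¹ * y₀⁻¹ with hc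
      have hcD : c ∈ D := comm_mem_sqs hy₁ hy₀
      have h1 : π (y₀ * y₀) = π y₁ * π (y₀ * y₀) * (π y₁)⁻¹ := by
        have c1 := hcenD (sq_mem_sqs hy₀) hy₁
        rw [c1.symm.eq]
        group
      have h2 : y₁ * (y₀ * y₀) * y₁⁻¹ = (c * y₀) * (c * y₀) := by rw [hc]; group
      have h3 : π y₁ * π (y₀ * y₀) * (π y₁)⁻¹ = π (y₁ * (y₀ * y₀) * y₁⁻¹) := by
        simp only [map_mul, map_inv]
      rw [h3, h2] at h1
      have c2 := hcenD hcD hy₀
      have h4 : π c * π c = 1 := by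
        simp only [map_mul] at h1
        have h5 : π y₀ * π y₀ = π c * π y₀ * (π c * π y₀) := h1
        have h6 : π c * π y₀ * (π c * π y₀) = (π c * π c) * (π y₀ * π y₀) := by
          calc π c * π y₀ * (π c * π y₀) = π c * (π y₀ * π c) * π y₀ := by group
            _ = π c * (π c * π y₀) * π y₀ := by rw [c2.symm.eq]
            _ = _ := by group
        rw [h6] at h5
        have := mul_eq_right.mp h5.symm
        exact this
      set k := z⁻¹ * c with hk
      have hkm : k ∈ K₀ := hcz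
      have hck : c = z * k := by rw [hk]; group
      rw [hck] at h4
      rw [← hπ1]
      have c1 := hcenK hkm hzP
      simp only [map_mul] at h4 ⊢
      calc π z * π z = π z * π z * (π k * π k) := by rw [hexpK hkm, mul_one]
        _ = π z * (π z * π k) * π k := by group
        _ = π z * (π k * π z) * π k := by rw [c1.eq]
        _ = π z * π k * (π z * π k) := by group
        _ = 1 := h4
    -- conclusion
    refine sup_le ?_ ?_
    · rw [Subgroup.commutator_le]
      intro d hd y hy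
      rw [← hπ1, commutatorElement_def]
      have c1 := hcenD hd hy
      simp only [map_mul, map_inv]
      rw [c1.eq]
      group
    · rw [Subgroup.closure_le]
      rintro _ ⟨d, hd, rfl⟩
      rcases hDform d hd with h | ⟨k, hk, rfl⟩
      · exact sq_mem_nxt h
      · change z * k * (z * k) ∈ K₁
        rw [← hπ1]
        have c1 := hcenK hk hzP
        simp only [map_mul]
        calc π z * π k * (π z * π k) = π z * (π k * π z) * π k := by group
          _ = π z * (π z * π k) * π k := by rw [c1.eq]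
          _ = π z * π z * (π k * π k) := by group
          _ = 1 := by rw [hexpK hk, mul_one, ← map_mul]; exact hπ1.mpr hzzK₁

end Cfsg.Agent.Lib.SecRank4.Kill
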