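import Cfsg.Agent.Lib.SecRank4.Sect

/-!
# The Frattini-type layers of a normal 2-subgroup
-/

set_option autoImplicit false

namespace Cfsg.Agent.Lib.SecRank4.Layers

open Cfsg.Agent.Lib.SecRank4.Sect
open scoped commutatorElement

variable {X : Type*} [Group X]

/-- The subgroup generated by the squares of elements of `P`. -/
def sqs (P : Subgroup X) : Subgroup X := Subgroup.closure {z | ∃ y ∈ P, z = y * y}

/-- `[E, P] E²`. -/
def nxt (P E : Subgroup X) : Subgroup X :=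
  ⁅E, P⁆ ⊔ Subgroup.closure {z | ∃ d ∈ E, z = d * d}

lemma sq_mem_sqs {P : Subgroup X} {y : X} (hy : y ∈ P) : y * y ∈ sqs P :=
  Subgroup.subset_closure ⟨y, hy, rfl⟩

lemma sqs_le (P : Subgroup X) : sqs P ≤ P := by
  rw [sqs, Subgroup.closure_le]
  rintro _ ⟨y, hy, rfl⟩
  exact P.mul_mem hy hy

instance sqs_normal (P : Subgroup X) [hP : P.Normal] : (sqs P).Normal := by
  constructor
  intro n hn g
  have : sqs P ≤ (sqs P).comap (MulAut.conj g).toMonoidHom := by
    rw [sqs, Subgroup.closure_le]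
    rintro _ ⟨y, hy, rfl⟩
    change g * (y * y) * g⁻¹ ∈ Subgroup.closure _
    apply Subgroup.subset_closure
    refine ⟨g * y * g⁻¹, hP.conj_mem y hy g, ?_⟩
    group
  exact this hn

lemma comm_mem_sqs {P : Subgroup X} [P.Normal] {x y : X} (hx : x ∈ P) (hy : y ∈ P) :
    x * y * x⁻¹ * y⁻¹ ∈ sqs P := by
  have hN : (sqs P).Normal := inferInstance
  have h1 := sq_mem_sqs (P.mul_mem hx hy)
  have h2 := hN.conj_mem _ (sq_mem_sqs (P.inv_mem hx)) y⁻¹
  have h3 := sq_mem_sqs (P.inv_mem hy)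
  have h4 : x * y * x⁻¹ * y⁻¹ = (x * y * (x * y)) * (y⁻¹ * (x⁻¹ * x⁻¹) * y⁻¹⁻¹) * (y⁻¹ * y⁻¹) := by
    group
  rw [h4]
  exact (sqs P).mul_mem ((sqs P).mul_mem h1 h2) h3

lemma comm_mem_nxt {P E : Subgroup X} {d y : X} (hd : d ∈ E) (hy : y ∈ P) :
    d * y * d⁻¹ * y⁻¹ ∈ nxt P E :=
  Subgroup.mem_sup_left (Subgroup.commutator_mem_commutator hd hy)

lemma sq_mem_nxt {P E : Subgroup X} {d : X} (hd : d ∈ E) : d * d ∈ nxt P E :=
  Subgroup.mem_sup_right (Subgroup.subset_closure ⟨d, hd, rfl⟩)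

instance nxt_normal (P E : Subgroup X) [hP : P.Normal] [hE : E.Normal] : (nxt P E).Normal := by
  have h1 : (Subgroup.closure {z | ∃ d ∈ E, z = d * d}).Normal := by
    constructor
    intro n hn g
    have : Subgroup.closure {z | ∃ d ∈ E, z = d * d} ≤
        (Subgroup.closure {z | ∃ d ∈ E, z = d * d}).comap (MulAut.conj g).toMonoidHom := by
      rw [Subgroup.closure_le]
      rintro _ ⟨y, hy, rfl⟩
      change g * (y * y) * g⁻¹ ∈ Subgroup.closure _
      apply Subgroup.subset_closure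
      refine ⟨g * y * g⁻¹, hE.conj_mem y hy g, ?_⟩
      group
    exact this hn
  exact Subgroup.sup_normal _ _

lemma nxt_le (P E : Subgroup X) [hE : E.Normal] : nxt P E ≤ E := by
  refine sup_le ?_ ?_
  · rw [Subgroup.commutator_le]
    intro d hd y _
    have h1 := hE.conj_mem _ (E.inv_mem hd) y
    have h2 : ⁅d, y⁆ = d * (y * d⁻¹ * y⁻¹) := by
      rw [commutatorElement_def]; group
    rw [h2]
    exact E.mul_mem hd h1
  · rw [Subgroup.closure_le]
    rintro _ ⟨d, hd, rfl⟩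
    exact E.mul_mem hd hd

/-- Nontrivial normal subgroups of a normal 2-subgroup are not reproduced. -/
lemma not_le_nxt [Finite X] {P E : Subgroup X} [hPn : P.Normal] [hEn : E.Normal] (hP : IsPGroup 2 P)
    (hEP : E ≤ P) (hE : E ≠ ⊥) : ¬ E ≤ nxt P E := by
  classical
  haveI : Fact (Nat.Prime 2) := ⟨Nat.prime_two⟩
  intro hle
  let E' : Subgroup P := E.subgroupOf P
  haveI hE'n : E'.Normal := inferInstance
  have hbot : (⊥ : Subgroup P) < E' := by
    rw [bot_lt_iff_ne_bot]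
    intro h
    apply hE
    rw [eq_bot_iff]
    intro d hd
    have : (⟨d, hEP hd⟩ : P) ∈ E' := hd
    rw [h, Subgroup.mem_bot] at this
    exact (Subgroup.mem_bot).mpr (congrArg Subtype.val this)
  obtain ⟨L, hLn, -, hLE, hidx⟩ :=
    Cfsg.Agent.Lib.PGroups.Basic.exists_normal_relIndex_below hP hbot
  -- the image of `L` in `X`
  let L₀ : Subgroup X := L.map P.subtype
  have hL₀E : L₀ ≤ E := by
    rintro _ ⟨l, hl, rfl⟩
    exact hLE hl
  have hmemL₀ : ∀ {d : X} (hd : d ∈ P), d ∈ L₀ ↔ (⟨d, hd⟩ : P) ∈ L := by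
    intro d hd
    constructor
    · rintro ⟨l, hl, hld⟩
      have : l = ⟨d, hd⟩ := Subtype.ext hld
      rwa [← this]
    · intro h
      exact ⟨_, h, rfl⟩
  have hsqL : ∀ d ∈ E, d * d ∈ L₀ := by
    intro d hd
    have hi : (L.subgroupOf E').index = 2 := hidx
    have := Subgroup.mul_self_mem_of_index_two hi (⟨⟨d, hEP hd⟩, hd⟩ : E')
    rw [Subgroup.mem_subgroupOf] at this
    exact (hmemL₀ (hEP (E.mul_mem hd hd))).mpr this
  -- two elements outside `L₀` differ by an element of `L₀`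
  have hdiff : ∀ a ∈ E, ∀ b ∈ E, a ∉ L₀ → b ∉ L₀ → a * b⁻¹ ∈ L₀ := by
    intro a ha b hb hnot hnot'
    have hi : (L.subgroupOf E').index = 2 := hidx
    let a' : E' := ⟨⟨a, hEP ha⟩, ha⟩
    let b' : E' := ⟨⟨b, hEP hb⟩, hb⟩
    have hna : a' ∉ L.subgroupOf E' := by
      rw [Subgroup.mem_subgroupOf]
      intro h
      exact hnot ((hmemL₀ (hEP ha)).mpr h)
    have hnb : b' ∉ L.subgroupOf E' := by
      rw [Subgroup.mem_subgroupOf]
      intro h
      exact hnot' ((hmemL₀ (hEP hb)).mpr h)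
    obtain ⟨c, hc⟩ := (Subgroup.index_eq_two_iff).mp hi
    have hab := (Subgroup.mul_mem_iff_of_index_two hi (a := a') (b := b'⁻¹))
    have h1 : a' * b'⁻¹ ∈ L.subgroupOf E' := by
      rw [hab]
      constructor
      · intro h; exact absurd h hna
      · intro h; exact absurd (by simpa using (L.subgroupOf E').inv_mem h) hnb
    rw [Subgroup.mem_subgroupOf] at h1
    exact (hmemL₀ (hEP (E.mul_mem ha (E.inv_mem hb)))).mpr h1
  have hcommL : ∀ d ∈ E, ∀ y ∈ P, d * y * d⁻¹ * y⁻¹ ∈ L₀ := by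
    intro d hd y hy
    have hconj : ∀ a, a ∈ E → (a ∈ L₀ ↔ y * a * y⁻¹ ∈ L₀) := by
      intro a ha
      rw [hmemL₀ (hEP ha), hmemL₀ (hEP (hEn.conj_mem a ha y))]
      constructor
      · intro h
        exact hLn.conj_mem _ h ⟨y, hy⟩
      · intro h
        have := hLn.conj_mem _ h ⟨y, hy⟩⁻¹
        have h2 : (⟨y, hy⟩ : P)⁻¹ * ⟨y * a * y⁻¹, hEP (hEn.conj_mem a ha y)⟩ * (⟨y, hy⟩ : P)⁻¹⁻¹ =
            ⟨a, hEP ha⟩ := by
          apply Subtype.ext
          simp [mul_assoc]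
        rwa [h2] at this
    have hd' : y * d * y⁻¹ ∈ E := hEn.conj_mem d hd y
    have hform : d * y * d⁻¹ * y⁻¹ = d * (y * d * y⁻¹)⁻¹ := by group
    rw [hform]
    by_cases hdL : d ∈ L₀
    · exact L₀.mul_mem hdL (L₀.inv_mem ((hconj d hd).mp hdL))
    · exact hdiff d hd _ hd' hdL (fun h => hdL ((hconj d hd).mpr h))
  have hnxtL : nxt P E ≤ L₀ := by
    refine sup_le ?_ ?_
    · rw [Subgroup.commutator_le]
      intro d hd y hy
      rw [commutatorElement_def]
      exact hcommL d hd y hy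
    · rw [Subgroup.closure_le]
      rintro _ ⟨d, hd, rfl⟩
      exact hsqL d hd
  -- contradiction: `E ≤ L₀` contradicts the index
  have hEL : E ≤ L₀ := hle.trans hnxtL
  have htop : L.subgroupOf E' = ⊤ := by
    rw [eq_top_iff]
    rintro ⟨⟨d, hd⟩, hdE⟩ -
    rw [Subgroup.mem_subgroupOf]
    exact (hmemL₀ hd).mp (hEL hdE)
  have hidx' : (L.subgroupOf E').index = 2 := hidx
  rw [htop, Subgroup.index_top] at hidx'
  omega

end Cfsg.Agent.Lib.SecRank4.Layers
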