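import Mathlib

/-!
# Quadratic invariants of a faithful action of `A₅` on a group of order 16
-/

set_option autoImplicit false

namespace Cfsg.Agent.Lib.SecRank4.Orb

open MulAction

/-- The alternating group on five letters. -/
abbrev A5 := ↥(alternatingGroup (Fin 5))

lemma card_A5 : Nat.card A5 = 60 := by
  rw [Nat.card_eq_fintype_card]
  decide +kernel

/-- Counting fixed points of a map with `f⁵ = id`. -/
lemma card_modEq_fixed {α : Type*} [Finite α] (f : α → α) (h : ∀ x, f (f (f (f (f x)))) = x) :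
    Nat.card α ≡ Nat.card {x // f x = x} [MOD 5] := by
  classical
  haveI := Fintype.ofFinite α
  let F : Function.End α := f
  have hf : F ^ 5 ^ 1 = 1 := by
    funext x
    exact h x
  haveI : Fact (Nat.Prime 5) := ⟨by norm_num⟩
  have := Equiv.Perm.card_fixedPoints_modEq (α := α) (f := F) (p := 5) (n := 1) hf
  rw [Nat.card_eq_fintype_card]
  have h2 : Nat.card {x // f x = x} = Fintype.card (Function.fixedPoints f) := by
    rw [Nat.card_eq_fintype_card]
    exact Fintype.card_congr (Equiv.refl _)
  rw [h2]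
  exact this

variable {V M : Type*} [Group V] [Group M]

section fix

variable [Finite V] (hcard : Nat.card V = 16) (ρ : A5 →* MulAut V) (hρ : Function.Injective ρ)

include hcard hρ in
/-- An element of order five acts without nontrivial fixed points. -/
lemma fix_of_order_five {g : A5} (hg : orderOf g = 5) {v : V} (hv : ρ g v = v) : v = 1 := by
  classical
  have hg5 : g ^ 5 = 1 := by
    have := pow_orderOf_eq_one g
    rwa [hg] at this
  have hpow : ρ g ^ 5 = 1 := by
    rw [← map_pow, hg5, map_one]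
  have h5 : ∀ x, (ρ g) ((ρ g) ((ρ g) ((ρ g) ((ρ g) x)))) = x := by
    intro x
    have := congrArg (fun τ : MulAut V => τ x) hpow
    exact this
  let C : Subgroup V :=
    { carrier := {x | ρ g x = x}
      mul_mem' := fun {a b} ha hb => by
        simp only [Set.mem_ofPred_eq] at ha hb ⊢
        rw [map_mul, ha, hb]
      one_mem' := by simp
      inv_mem' := fun {a} ha => by
        simp only [Set.mem_ofPred_eq] at ha ⊢
        rw [map_inv, ha] }
  have h1 := card_modEq_fixed (fun x => ρ g x) h5
  have h2 : Nat.card {x // (ρ g) x = x} = Nat.card C := rfl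
  rw [h2, hcard] at h1
  have h3 : Nat.card C ∣ 16 := by rw [← hcard]; exact Subgroup.card_subgroup_dvd_card C
  have h4 : Nat.card C ≠ 16 := by
    intro h
    have htop : C = ⊤ := by
      apply Subgroup.eq_top_of_card_eq
      rw [h, hcard]
    have h1' : ρ g = 1 := by
      ext x
      have : x ∈ C := htop ▸ Subgroup.mem_top x
      exact this
    have h2' : g = 1 := hρ (by rw [h1', map_one])
    rw [h2', orderOf_one] at hg
    omega
  have h5' : Nat.card C = 1 := by
    have hle : Nat.card C ≤ 16 := Nat.le_of_dvd (by norm_num) h3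
    have hmod : 16 % 5 = Nat.card C % 5 := h1
    interval_cases hc : Nat.card C <;> first | omega | rfl | (revert h3; norm_num)
  have : C = ⊥ := (Subgroup.card_eq_one).mp h5'
  have hvC : v ∈ C := hv
  rw [this] at hvC
  exact (Subgroup.mem_bot).mp hvC

include hcard hρ in
/-- An invariant subgroup under an element of order five is trivial or everything. -/
lemma sub_invariant {g : A5} (hg : orderOf g = 5) (W : Subgroup V) (hW : ∀ w ∈ W, ρ g w ∈ W) :
    W = ⊥ ∨ W = ⊤ := by
  classical
  have hg5 : g ^ 5 = 1 := by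
    have := pow_orderOf_eq_one g
    rwa [hg] at this
  have hpow : ρ g ^ 5 = 1 := by
    rw [← map_pow, hg5, map_one]
  have h5 : ∀ x, (ρ g) ((ρ g) ((ρ g) ((ρ g) ((ρ g) x)))) = x := by
    intro x
    have := congrArg (fun τ : MulAut V => τ x) hpow
    exact this
  let f : W → W := fun w => ⟨ρ g w, hW w w.2⟩
  have hf5 : ∀ x, f (f (f (f (f x)))) = x := fun x => Subtype.ext (h5 x)
  have h1 := card_modEq_fixed f hf5
  have hfix : Nat.card {x // f x = x} = 1 := by
    have : Unique {x // f x = x} :=
      { default := ⟨1, Subtype.ext (by simp [f])⟩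
        uniq := by
          rintro ⟨x, hx⟩
          apply Subtype.ext
          apply Subtype.ext
          have : ρ g (x : V) = x := congrArg Subtype.val hx
          exact fix_of_order_five hcard ρ hρ hg this }
    exact Nat.card_unique
  rw [hfix] at h1
  have h3 : Nat.card W ∣ 16 := by rw [← hcard]; exact Subgroup.card_subgroup_dvd_card W
  have hle : Nat.card W ≤ 16 := Nat.le_of_dvd (by norm_num) h3
  have hmod : Nat.card W % 5 = 1 % 5 := h1
  have h16 : Nat.card W = 1 ∨ Nat.card W = 16 := by
    interval_cases hc : Nat.card W <;> first | omega | (revert h3; norm_num)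
  rcases h16 with h | h
  · exact Or.inl ((Subgroup.card_eq_one).mp h)
  · exact Or.inr (Subgroup.eq_top_of_card_eq _ (by rw [h, hcard]))

end fix

/-- A five-cycle in `A₅`. -/
def g₀ : A5 := ⟨finRotate 5, by rw [Equiv.Perm.mem_alternatingGroup]; decide +kernel⟩

lemma orderOf_g₀ : orderOf g₀ = 5 := by
  haveI : Fact (Nat.Prime 5) := ⟨by norm_num⟩
  apply orderOf_eq_prime
  · decide +kernel
  · decide +kernel

lemma two_trans : ∀ i j k l : Fin 5, i ≠ j → k ≠ l →
    ∃ σ : Equiv.Perm (Fin 5), (σ * σ) i = k ∧ (σ * σ) j = l := by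
  decide +kernel

lemma three_ext : ∀ k i j : Fin 5, k ≠ i → k ≠ j → i ≠ j →
    ∃ τ : Equiv.Perm (Fin 5), τ 0 = k ∧ τ 1 = i ∧ τ 2 = j := by
  decide +kernel

section core

variable [Finite V] (hV : ∀ v : V, v * v = 1) (hM : ∀ m : M, m * m = 1) (hcard : Nat.card V = 16)
  (ρ : A5 →* MulAut V) (hρ : Function.Injective ρ)
  (s : V → M) (hs1 : s 1 = 1) (hinv : ∀ g v, s (ρ g v) = s v)
  (hc : ∀ u u' v, s (u * u' * v) * s (u * u') * s v =
    (s (u * v) * s u * s v) * (s (u' * v) * s u' * s v))

/-- The action of `A₅` on `V`. -/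
abbrev actOf : MulAction A5 V := MulAction.compHom V ρ

include hcard hρ in
lemma five_dvd_orbit {v : V} (hv : v ≠ 1) :
    letI := actOf ρ
    5 ∣ (orbit A5 v).ncard := by
  letI := actOf ρ
  haveI : Fact (Nat.Prime 5) := ⟨by norm_num⟩
  by_contra h
  have h1 : (stabilizer A5 v).index = (orbit A5 v).ncard := index_stabilizer A5 v
  have h2 := (stabilizer A5 v).card_mul_index
  rw [h1, card_A5] at h2
  have h3 : 5 ∣ Nat.card (stabilizer A5 v) := by
    have h4 : 5 ∣ Nat.card (stabilizer A5 v) * (orbit A5 v).ncard := by rw [h2]; norm_num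
    exact (Nat.Prime.dvd_mul (by norm_num)).mp h4 |>.resolve_right h
  obtain ⟨x, hx⟩ := exists_prime_orderOf_dvd_card' 5 h3
  have hx' : orderOf (x : A5) = 5 := by rw [Subgroup.orderOf_coe]; exact hx
  have hxv : ρ (x : A5) v = v := x.2
  exact hv (fix_of_order_five hcard ρ hρ hx' hxv)

lemma ne_one_of_smul (g : A5) {v : V} (hv : v ≠ 1) : ρ g v ≠ 1 := by
  intro h
  apply hv
  have := (ρ g).injective (h.trans (map_one (ρ g)).symm)
  exact this

include hcard in
lemma exists_not_mem (t : Finset V) (ht : t.card < 16) : ∃ x, x ∉ t := by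
  classical
  haveI := Fintype.ofFinite V
  by_contra h
  push Not at h
  have h1 : t = Finset.univ := Finset.eq_univ_iff_forall.mpr h
  rw [h1, Finset.card_univ, ← Nat.card_eq_fintype_card, hcard] at ht
  omega

include hcard hV hM hs1 hinv hc hρ in
/-- The transitive case. -/
lemma trivial_of_no_five (hF : ¬ ∃ v₀ : V, v₀ ≠ 1 ∧ letI := actOf ρ; (orbit A5 v₀).ncard = 5) :
    ∀ v, s v = 1 := by
  classical
  letI := actOf ρ
  have hcomm : ∀ x y : M, x * y = y * x := by
    intro x y
    have h := hM (x * y)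
    calc x * y = x * (x * y * (x * y)) * y := by rw [h]; simp
      _ = (x * x) * (y * x) * (y * y) := by group
      _ = y * x := by rw [hM, hM]; simp
  letI : CommGroup M := { ‹Group M› with mul_comm := hcomm }
  have hge : ∀ v : V, v ≠ 1 → 10 ≤ (orbit A5 v).ncard := by
    intro v hv
    obtain ⟨k, hk⟩ := five_dvd_orbit hcard ρ hρ hv
    have hpos : 0 < (orbit A5 v).ncard :=
      Set.ncard_pos (Set.toFinite _) |>.mpr (MulAction.nonempty_orbit v)
    have h5 : (orbit A5 v).ncard ≠ 5 := fun h => hF ⟨v, hv, h⟩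
    omega
  have hT : ({1} : Set V)ᶜ.ncard = 15 := by
    rw [Set.ncard_compl, hcard, Set.ncard_singleton]
  have hsub : ∀ v : V, v ≠ 1 → orbit A5 v ⊆ ({1} : Set V)ᶜ := by
    rintro v hv _ ⟨g, rfl⟩
    exact ne_one_of_smul ρ g hv
  have htrans : ∀ u w : V, u ≠ 1 → w ≠ 1 → w ∈ orbit A5 u := by
    intro u w hu hw
    by_contra hwu
    have hdisj : Disjoint (orbit A5 u) (orbit A5 w) := by
      rw [Set.disjoint_left]
      rintro x ⟨g, rfl⟩ ⟨h, hh⟩
      apply hwu
      refine ⟨h⁻¹ * g, ?_⟩
      change (h⁻¹ * g) • u = w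
      rw [mul_smul]
      have hh' : h • w = g • u := hh
      rw [← hh', inv_smul_smul]
    have h1 := Set.ncard_union_eq hdisj (Set.toFinite _) (Set.toFinite _)
    have h2 : (orbit A5 u ∪ orbit A5 w).ncard ≤ 15 := by
      rw [← hT]
      exact Set.ncard_le_ncard (Set.union_subset (hsub u hu) (hsub w hw)) (Set.toFinite _)
    have h3 := hge u hu
    have h4 := hge w hw
    omega
  have hconst : ∀ u w : V, u ≠ 1 → w ≠ 1 → s u = s w := by
    intro u w hu hw
    obtain ⟨g, hg⟩ := htrans u w hu hw
    rw [← hg]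
    exact (hinv g u).symm
  -- three independent vectors
  obtain ⟨u, hu⟩ := exists_not_mem hcard ({1} : Finset V) (by simp)
  obtain ⟨w, hw⟩ := exists_not_mem hcard ({1, u} : Finset V) (Finset.card_le_two.trans_lt (by norm_num))
  obtain ⟨x, hx⟩ := exists_not_mem hcard ({1, u, w, u * w} : Finset V)
    (Finset.card_le_four.trans_lt (by norm_num))
  simp only [Finset.mem_insert, Finset.mem_singleton, not_or] at hu hw hx
  obtain ⟨hw1, hwu⟩ := hw
  obtain ⟨hx1, hxu, hxw, hxuw⟩ := hx
  have hVinv : ∀ a : V, a⁻¹ = a := fun a => inv_eq_of_mul_eq_one_left (hV a)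
  have hmul_ne : ∀ a b : V, a ≠ b → a * b ≠ 1 := by
    intro a b hab h
    apply hab
    have := eq_inv_of_mul_eq_one_left h
    rwa [hVinv] at this
  have hcommV : ∀ a b : V, a * b = b * a := by
    intro a b
    have h := hV (a * b)
    calc a * b = a * (a * b * (a * b)) * b := by rw [h]; simp
      _ = (a * a) * (b * a) * (b * b) := by group
      _ = b * a := by rw [hV, hV]; simp
  have hwx : w * x ≠ 1 := hmul_ne _ _ (Ne.symm hxw)
  have hwu' : w * u ≠ 1 := hmul_ne _ _ hwu
  have hxu' : x * u ≠ 1 := hmul_ne _ _ hxu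
  have hwxu : w * x * u ≠ 1 := by
    intro h
    apply hxuw
    have h1 : w * x = u := by
      have := eq_inv_of_mul_eq_one_left h
      rwa [hVinv] at this
    calc x = w * w * x := by rw [hV]; simp
      _ = w * (w * x) := by group
      _ = w * u := by rw [h1]
      _ = u * w := hcommV _ _
  set m := s u with hm
  have key := hc w x u
  rw [hconst _ u hwxu hu, hconst _ u hwx hu, hconst _ u hwu' hu, hconst _ u hw1 hu,
    hconst _ u hxu' hu, hconst _ u hx1 hu] at key
  have hmm : m * m = 1 := hM m
  have hm1 : m = 1 := by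
    have : m * m * m = m * m * m * (m * m * m) := key
    rw [hmm, one_mul, mul_comm] at this
    simpa [hmm] using this
  intro v
  by_cases hv : v = 1
  · rw [hv, hs1]
  · rw [hconst v u hv hu, ← hm, hm1]

include hV hM hs1 hinv hc hρ hcard in
/-- The main structure statement. -/
theorem core :
    (∀ v, s v = 1) ∨ ∃ (e : Fin 5 → V) (β : M), β ≠ 1 ∧ (∀ i, e i ≠ 1) ∧
      e 0 * e 1 * e 2 * e 3 * e 4 = 1 ∧ (∀ i, s (e i) = 1) ∧
      (∀ i j, i ≠ j → s (e i * e j) = β) ∧
      (∀ v, v = 1 ∨ (∃ i, v = e i) ∨ ∃ i j, i ≠ j ∧ v = e i * e j) := by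
  classical
  by_cases hF : ∃ v₀ : V, v₀ ≠ 1 ∧ letI := actOf ρ; (orbit A5 v₀).ncard = 5
  swap
  · exact Or.inl (trivial_of_no_five hV hM hcard ρ hρ s hs1 hinv hc hF)
  obtain ⟨v₀, hv₀, h5⟩ := hF
  letI := actOf ρ
  have hcommV : ∀ x y : V, x * y = y * x := by
    intro x y
    have h := hV (x * y)
    calc x * y = x * (x * y * (x * y)) * y := by rw [h]; simp
      _ = (x * x) * (y * x) * (y * y) := by group
      _ = y * x := by rw [hV, hV]; simp
  have hcommM : ∀ x y : M, x * y = y * x := by
    intro x y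
    have h := hM (x * y)
    calc x * y = x * (x * y * (x * y)) * y := by rw [h]; simp
      _ = (x * x) * (y * x) * (y * y) := by group
      _ = y * x := by rw [hM, hM]; simp
  letI : CommGroup V := { ‹Group V› with mul_comm := hcommV }
  letI : CommGroup M := { ‹Group M› with mul_comm := hcommM }
  have hVinv : ∀ a : V, a⁻¹ = a := fun a => inv_eq_of_mul_eq_one_left (hV a)
  have hcardO : Nat.card (orbit A5 v₀) = 5 := by rw [Nat.card_coe_set_eq]; exact h5
  let lab : orbit A5 v₀ ≃ Fin 5 := Finite.equivFinOfCardEq hcardO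
  let e : Fin 5 → V := fun i => (lab.symm i : V)
  let π : A5 →* Equiv.Perm (Fin 5) :=
    (lab.permCongrHom).toMonoidHom.comp (MulAction.toPermHom A5 (orbit A5 v₀))
  have hπ : ∀ g i, e (π g i) = ρ g (e i) := by
    intro g i
    have h1 : π g i = lab (g • lab.symm i) := rfl
    simp only [e]
    rw [h1, Equiv.symm_apply_apply]
    rfl
  have he_mem : ∀ i, e i ∈ orbit A5 v₀ := fun i => (lab.symm i).2
  have he_ne : ∀ i, e i ≠ 1 := by
    intro i
    obtain ⟨g, hg⟩ := he_mem i
    rw [← hg]
    exact ne_one_of_smul ρ g hv₀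
  have hsα : ∀ i, s (e i) = s v₀ := by
    intro i
    obtain ⟨g, hg⟩ := he_mem i
    rw [← hg]
    exact hinv g v₀
  -- the product
  have hprod : ∏ i, e i = 1 := by
    apply fix_of_order_five hcard ρ hρ orderOf_g₀
    rw [map_prod]
    simp only [← hπ]
    exact Equiv.prod_comp (π g₀) e
  have hprod5 : e 0 * e 1 * e 2 * e 3 * e 4 = 1 := by
    rw [← hprod, Fin.prod_univ_five]
  -- the closure
  have htop : Subgroup.closure (Set.range e) = ⊤ := by
    have hinvar : ∀ w ∈ Subgroup.closure (Set.range e), ρ g₀ w ∈ Subgroup.closure (Set.range e) := by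
      intro w hw
      have : Subgroup.closure (Set.range e) ≤
          (Subgroup.closure (Set.range e)).comap (ρ g₀).toMonoidHom := by
        rw [Subgroup.closure_le]
        rintro _ ⟨i, rfl⟩
        change ρ g₀ (e i) ∈ Subgroup.closure (Set.range e)
        rw [← hπ]
        exact Subgroup.subset_closure ⟨_, rfl⟩
      exact this hw
    rcases sub_invariant hcard ρ hρ orderOf_g₀ _ hinvar with h | h
    · exfalso
      have : e 0 ∈ Subgroup.closure (Set.range e) := Subgroup.subset_closure ⟨0, rfl⟩
      rw [h] at this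
      exact he_ne 0 ((Subgroup.mem_bot).mp this)
    · exact h
  -- faithfulness on the labels
  have hπinj : Function.Injective π := by
    rw [injective_iff_map_eq_one]
    intro g hg
    apply hρ
    rw [map_one]
    ext x
    have hx : x ∈ Subgroup.closure (Set.range e) := htop ▸ Subgroup.mem_top x
    have hle : Subgroup.closure (Set.range e) ≤
        MonoidHom.eqLocus (ρ g).toMonoidHom (MonoidHom.id V) := by
      rw [Subgroup.closure_le]
      rintro _ ⟨i, rfl⟩
      change ρ g (e i) = e i
      rw [← hπ, hg]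
      rfl
    exact hle hx
  have hidx : π.range.index = 2 := by
    have h1 : Nat.card π.range = 60 := by
      rw [← card_A5]
      exact (Nat.card_congr (MonoidHom.ofInjective hπinj).toEquiv).symm
    have h2 := π.range.card_mul_index
    have h3 : Nat.card (Equiv.Perm (Fin 5)) = 120 := by
      rw [Nat.card_eq_fintype_card, Fintype.card_perm]
      rfl
    rw [h1, h3] at h2
    omega
  have h2tr : ∀ i j k l : Fin 5, i ≠ j → k ≠ l → s (e i * e j) = s (e k * e l) := by
    intro i j k l hij hkl
    obtain ⟨σ, h1, h2⟩ := two_trans i j k l hij hkl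
    obtain ⟨g, hg⟩ := Subgroup.mul_self_mem_of_index_two hidx σ
    have h3 : ρ g (e i * e j) = e k * e l := by
      rw [map_mul, ← hπ, ← hπ, hg, h1, h2]
    rw [← h3]
    exact (hinv g _).symm
  set α := s v₀ with hα
  set β := s (e 0 * e 1) with hβ
  have hαα : α * α = 1 := hM α
  have hββ : β * β = 1 := hM β
  have hpair : ∀ i j : Fin 5, i ≠ j → s (e i * e j) = β := fun i j hij =>
    h2tr i j 0 1 hij (by decide)
  have hα1 : α = 1 := by
    have key := hc (e 0) (e 1) (e 2)
    rw [hpair 0 2 (by decide), hpair 1 2 (by decide), hsα 0, hsα 1, hsα 2, ← hβ] at key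
    -- `e 0 * e 1 * e 2 = e 3 * e 4`
    have h012 : e 0 * e 1 * e 2 = e 3 * e 4 := by
      have h1 : e 0 * e 1 * e 2 * (e 3 * e 4) = 1 := by
        rw [← hprod5]; simp only [mul_assoc]
      have := eq_inv_of_mul_eq_one_left h1
      rwa [hVinv] at this
    rw [h012, hpair 3 4 (by decide)] at key
    have e1 : β * β * α = α := by rw [hββ, one_mul]
    have e2 : (β * α * α) * (β * α * α) = 1 := by
      rw [mul_assoc β, hαα, mul_one, hββ]
    rw [e2, e1] at key
    exact key
  have hmem : ∀ v, v = 1 ∨ (∃ i, v = e i) ∨ ∃ i j, i ≠ j ∧ v = e i * e j := by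
    intro v
    have hv : v ∈ Subgroup.closure (Set.range e) := htop ▸ Subgroup.mem_top v
    have step : ∀ (k : Fin 5) (y : V), (y = 1 ∨ (∃ i, y = e i) ∨ ∃ i j, i ≠ j ∧ y = e i * e j) →
        (e k * y = 1 ∨ (∃ i, e k * y = e i) ∨ ∃ i j, i ≠ j ∧ e k * y = e i * e j) := by
      intro k y hy
      rcases hy with rfl | ⟨i, rfl⟩ | ⟨i, j, hij, rfl⟩
      · exact Or.inr (Or.inl ⟨k, mul_one _⟩)
      · by_cases hki : k = i
        · subst hki
          exact Or.inl (hV _)
        · exact Or.inr (Or.inr ⟨k, i, hki, rfl⟩)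
      · by_cases hki : k = i
        · subst hki
          refine Or.inr (Or.inl ⟨j, ?_⟩)
          rw [← mul_assoc, hV, one_mul]
        by_cases hkj : k = j
        · subst hkj
          refine Or.inr (Or.inl ⟨i, ?_⟩)
          rw [mul_comm (e i), ← mul_assoc, hV, one_mul]
        obtain ⟨τ, h0, h1, h2⟩ := three_ext k i j hki hkj hij
        refine Or.inr (Or.inr ⟨τ 3, τ 4, fun h => absurd (τ.injective h) (by decide), ?_⟩)
        have hp : e (τ 0) * e (τ 1) * e (τ 2) * e (τ 3) * e (τ 4) = 1 := by
          rw [← hprod, ← Fin.prod_univ_five (fun x => e (τ x))]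
          exact Equiv.prod_comp τ e
        rw [h0, h1, h2] at hp
        have h3 : e k * (e i * e j) * (e (τ 3) * e (τ 4)) = 1 := by
          rw [← hp]; simp only [mul_assoc]
        have := eq_inv_of_mul_eq_one_left h3
        rwa [hVinv] at this
    induction hv using Subgroup.closure_induction_left with
    | one => exact Or.inl rfl
    | mul_left x hx y _ ih =>
      obtain ⟨k, rfl⟩ := hx
      exact step k y ih
    | inv_mul_cancel x hx y _ ih =>
      obtain ⟨k, rfl⟩ := hx
      rw [hVinv]
      exact step k y ih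
  by_cases hβ1 : β = 1
  · left
    intro v
    rcases hmem v with rfl | ⟨i, rfl⟩ | ⟨i, j, hij, rfl⟩
    · exact hs1
    · rw [hsα, hα1]
    · rw [hpair i j hij, hβ1]
  · right
    refine ⟨e, β, hβ1, he_ne, hprod5, fun i => by rw [hsα, hα1], hpair, hmem⟩

end core

end Cfsg.Agent.Lib.SecRank4.Orb
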