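import Mathlib

/-!
# Central products of `Q₈` and `D₈` from relations
-/

set_option autoImplicit false

namespace Cfsg.Agent.Lib.SecRank4.Struct

open QuaternionGroup

variable {G : Type*} [Group G]

section pw

variable {x : G} (hx4 : x ^ 4 = 1)

/-- `x` to a residue mod 4. -/
def vv (x : G) (i : ZMod 4) : G := x ^ i.val

include hx4 in
lemma vv_add (i j : ZMod 4) : vv x (i + j) = vv x i * vv x j := by
  unfold vv
  rw [ZMod.val_add, ← pow_add]
  exact (pow_eq_pow_mod _ hx4).symm

lemma vv_comm (i j : ZMod 4) : vv x i * vv x j = vv x j * vv x i := by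
  unfold vv
  rw [← pow_add, ← pow_add, add_comm]

lemma vv_zero : vv x (0 : ZMod 4) = 1 := by
  unfold vv
  simp

include hx4 in
lemma vv_sub (i j : ZMod 4) : vv x (j - i) = vv x j * (vv x i)⁻¹ := by
  have h := vv_add hx4 (j - i) i
  rw [sub_add_cancel] at h
  rw [h]
  simp

lemma vv_conj {y : G} (hr : y * x * y⁻¹ = x⁻¹) (i : ZMod 4) : y * vv x i = (vv x i)⁻¹ * y := by
  unfold vv
  have h : y * x ^ i.val * y⁻¹ = (x⁻¹) ^ i.val := by
    rw [← hr]
    exact (conj_pow).symm
  calc y * x ^ i.val = (y * x ^ i.val * y⁻¹) * y := by group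
    _ = (x ^ i.val)⁻¹ * y := by rw [h, inv_pow]

lemma vv_two : vv x (2 : ZMod 4) = x * x := by
  unfold vv
  have : (2 : ZMod 4).val = 2 := rfl
  rw [this, pow_two]

end pw

lemma vv_swap {x y : G} (hr : y * x * y⁻¹ = x⁻¹) (i : ZMod 4) : vv x i * y = y * (vv x i)⁻¹ := by
  have h := vv_conj hr i
  calc vv x i * y = vv x i * (y * vv x i) * (vv x i)⁻¹ := by group
    _ = vv x i * ((vv x i)⁻¹ * y) * (vv x i)⁻¹ := by rw [h]
    _ = y * (vv x i)⁻¹ := by group

lemma vv_mid {x y : G} (hx4 : x ^ 4 = 1) (hr : y * x * y⁻¹ = x⁻¹) (i j : ZMod 4) :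
    vv x i * (y * vv x j) = y * vv x (j - i) := by
  rw [← mul_assoc, vv_swap hr, vv_sub hx4, mul_assoc]
  have hc : Commute (vv x i)⁻¹ (vv x j) := (show Commute (vv x i) (vv x j) from vv_comm i j).inv_left
  rw [hc.eq]

lemma vv_xx {x y : G} (hx4 : x ^ 4 = 1) (hr : y * x * y⁻¹ = x⁻¹) (i j : ZMod 4) :
    (y * vv x i) * (y * vv x j) = (y * y) * vv x (j - i) := by
  rw [mul_assoc, vv_mid hx4 hr, mul_assoc]

lemma zmod4_cases (i : ZMod 4) : i = 0 ∨ i = 1 ∨ i = 2 ∨ i = 3 := by
  revert i; decide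

/-- Homomorphism from the quaternion group of order eight given by relations. -/
def quatHom {x y : G} (hx4 : x ^ 4 = 1) (hy : y * y = x * x) (hr : y * x * y⁻¹ = x⁻¹) :
    QuaternionGroup 2 →* G :=
  MonoidHom.mk' (fun q => match q with
      | QuaternionGroup.a i => vv x i
      | QuaternionGroup.xa i => y * vv x i) (by
    rintro (i | i) (j | j)
    · exact vv_add hx4 i j
    · exact (vv_mid hx4 hr i j).symm
    · change y * vv x (i + j) = y * vv x i * vv x j
      rw [vv_add hx4, mul_assoc]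
    · change vv x (((2 : ℕ) : ZMod 4) + j - i) = y * vv x i * (y * vv x j)
      rw [vv_xx hx4 hr, hy, ← vv_two (x := x)]
      rw [← vv_add hx4]
      congr 1
      have : ((2 : ℕ) : ZMod 4) = 2 := rfl
      rw [this]
      ring)

/-- Homomorphism from the dihedral group of order eight given by relations. -/
def dihHom {x y : G} (hx4 : x ^ 4 = 1) (hy : y * y = 1) (hr : y * x * y⁻¹ = x⁻¹) :
    DihedralGroup 4 →* G :=
  MonoidHom.mk' (fun q => match q with
      | DihedralGroup.r i => vv x i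
      | DihedralGroup.sr i => y * vv x i) (by
    rintro (i | i) (j | j)
    · exact vv_add hx4 i j
    · exact (vv_mid hx4 hr i j).symm
    · change y * vv x (i + j) = y * vv x i * vv x j
      rw [vv_add hx4, mul_assoc]
    · change vv x (j - i) = y * vv x i * (y * vv x j)
      rw [vv_xx hx4 hr, hy, one_mul])

section inj

variable {x y : G} (hx4 : x ^ 4 = 1) (hx2 : x * x ≠ 1) (hr : y * x * y⁻¹ = x⁻¹)

include hx4 hx2 in
lemma vv_eq_one {i : ZMod 4} (h : vv x i = 1) : i = 0 := by
  rcases zmod4_cases i with rfl | rfl | rfl | rfl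
  · rfl
  · exfalso
    have : vv x (1 : ZMod 4) = x := by
      change x ^ 1 = x
      exact pow_one x
    rw [this] at h
    exact hx2 (by rw [h, one_mul])
  · exfalso
    rw [vv_two] at h
    exact hx2 h
  · exfalso
    have : vv x (3 : ZMod 4) = x ^ 3 := rfl
    rw [this] at h
    have h4 : x = 1 := by
      have : x ^ 4 = x ^ 3 * x := pow_succ x 3
      rw [this, h, one_mul] at hx4
      exact hx4
    exact hx2 (by rw [h4, one_mul])

include hx2 hr in
lemma mul_vv_ne_one (i : ZMod 4) : y * vv x i ≠ 1 := by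
  intro h
  have hy : y = (vv x i)⁻¹ := eq_inv_of_mul_eq_one_left h
  have hc : Commute y x := by
    rw [hy]
    apply Commute.inv_left
    unfold vv
    exact (Commute.refl x).pow_left _
  have h1 : y * x * y⁻¹ = x := by
    rw [hc.eq]; group
  rw [h1] at hr
  apply hx2
  calc x * x = x * x⁻¹ := by rw [← hr]
    _ = 1 := by group

end inj

lemma quat_center : ∀ q : QuaternionGroup 2, (∀ q' : QuaternionGroup 2, q * q' = q' * q) →
    q = a 0 ∨ q = a 2 := by
  decide +kernel

lemma dih_center : ∀ q : DihedralGroup 4, (∀ q' : DihedralGroup 4, q * q' = q' * q) →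
    q = DihedralGroup.r 0 ∨ q = DihedralGroup.r 2 := by
  decide +kernel

/-- Recognition of the central product `Q₈ ∗ D₈`. -/
theorem exists_central_product [Finite G] (hcard : Nat.card G = 32) {a' b' r s : G}
    (ha4 : a' ^ 4 = 1) (ha2 : a' * a' ≠ 1) (hb : b' * b' = a' * a') (hab : b' * a' * b'⁻¹ = a'⁻¹)
    (hr4 : r ^ 4 = 1) (hrz : r * r = a' * a') (hs : s * s = 1) (hsr : s * r * s⁻¹ = r⁻¹)
    (h1 : Commute a' r) (h2 : Commute a' s) (h3 : Commute b' r) (h4 : Commute b' s) :
    ∃ A B : Subgroup G, Nonempty (A ≃* QuaternionGroup 2) ∧ Nonempty (B ≃* DihedralGroup 4) ∧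
      (∀ x ∈ A, ∀ y ∈ B, x * y = y * x) ∧ A ⊔ B = ⊤ ∧ A ⊓ B = Subgroup.center G := by
  classical
  let fQ := quatHom ha4 hb hab
  let fD := dihHom hr4 hs hsr
  have hr2 : r * r ≠ 1 := by rw [hrz]; exact ha2
  have hfQ : Function.Injective fQ := by
    rw [injective_iff_map_eq_one]
    rintro (i | i) h
    · have h' : vv a' i = 1 := h
      have := vv_eq_one ha4 ha2 h'
      rw [this]
      rfl
    · exact absurd h (mul_vv_ne_one ha2 hab i)
  have hfD : Function.Injective fD := by
    rw [injective_iff_map_eq_one]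
    rintro (i | i) h
    · have h' : vv r i = 1 := h
      have := vv_eq_one hr4 hr2 h'
      rw [this]
      rfl
    · exact absurd h (mul_vv_ne_one hr2 hsr i)
  have hcomm : ∀ p q, Commute (fQ p) (fD q) := by
    have e1 : ∀ i j : ZMod 4, Commute (vv a' i) (vv r j) := fun i j => (h1.pow_left _).pow_right _
    have e2 : ∀ i : ZMod 4, Commute (vv a' i) s := fun i => h2.pow_left _
    have e3 : ∀ j : ZMod 4, Commute b' (vv r j) := fun j => h3.pow_right _
    rintro (i | i) (j | j)
    · exact e1 i j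
    · exact (e2 i).mul_right (e1 i j)
    · exact (e3 j).mul_left (e1 i j)
    · exact ((h4.mul_right (e3 j)).mul_left ((e2 i).mul_right (e1 i j)))
  set A := fQ.range with hA
  set B := fD.range with hB
  set z := a' * a' with hz
  have hzQ : fQ (QuaternionGroup.a 2) = z := vv_two (x := a')
  have hzD : fD (DihedralGroup.r 2) = z := (vv_two (x := r)).trans hrz
  have hAB : ∀ x ∈ A, ∀ y ∈ B, x * y = y * x := by
    rintro _ ⟨p, rfl⟩ _ ⟨q, rfl⟩
    exact hcomm p q
  -- the centre of `A`
  have hcenA : ∀ p, (∀ p', fQ p * fQ p' = fQ p' * fQ p) → fQ p = 1 ∨ fQ p = z := by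
    intro p hp
    have : ∀ p', p * p' = p' * p := fun p' => hfQ (by rw [map_mul, map_mul, hp])
    rcases quat_center p this with rfl | rfl
    · left; exact map_one fQ
    · right; exact hzQ
  have hcenB : ∀ q, (∀ q', fD q * fD q' = fD q' * fD q) → fD q = 1 ∨ fD q = z := by
    intro q hq
    have : ∀ q', q * q' = q' * q := fun q' => hfD (by rw [map_mul, map_mul, hq])
    rcases dih_center q this with rfl | rfl
    · left; exact map_one fD
    · right; exact hzD
  have hzA : z ∈ A := ⟨_, hzQ⟩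
  have hzB : z ∈ B := ⟨_, hzD⟩
  have hinf : ∀ x, x ∈ A ⊓ B → x = 1 ∨ x = z := by
    rintro x ⟨⟨p, rfl⟩, hx⟩
    apply hcenA
    intro p'
    exact (hAB _ ⟨p', rfl⟩ _ hx).symm
  have hz1 : z ≠ 1 := ha2
  -- the product map
  let F : QuaternionGroup 2 × DihedralGroup 4 →* G := MonoidHom.noncommCoprod fQ fD hcomm
  have hF : ∀ p q, F (p, q) = fQ p * fD q := fun _ _ => rfl
  have hFtop : F.range = ⊤ := by
    have hker : Nat.card F.ker ≤ 2 := by
      -- injection of the kernel into `{1, z}`
      let g : F.ker → ({1, z} : Finset G) := fun k => ⟨fQ k.1.1, by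
        have hk : fQ k.1.1 * fD k.1.2 = 1 := k.2
        have h5 : fQ k.1.1 ∈ A ⊓ B := by
          refine ⟨⟨_, rfl⟩, ?_⟩
          have : fQ k.1.1 = (fD k.1.2)⁻¹ := eq_inv_of_mul_eq_one_left hk
          rw [this]
          exact B.inv_mem ⟨_, rfl⟩
        simpa using hinf _ h5⟩
      have hg : Function.Injective g := by
        rintro ⟨⟨p, q⟩, hk⟩ ⟨⟨p', q'⟩, hk'⟩ hgg
        have e1 : fQ p = fQ p' := congrArg Subtype.val hgg
        have e2 : p = p' := hfQ e1
        subst e2
        have e3 : fQ p * fD q = 1 := hk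
        have e4 : fQ p * fD q' = 1 := hk'
        have e5 : fD q = fD q' := mul_left_cancel (e3.trans e4.symm)
        have e6 : q = q' := hfD e5
        subst e6
        rfl
      have := Nat.card_le_card_of_injective g hg
      refine this.trans ?_
      rw [Nat.card_eq_fintype_card, Fintype.card_coe]
      exact Finset.card_le_two
    have h5 := F.ker.card_mul_index
    rw [Subgroup.index_ker] at h5
    have h6 : Nat.card (QuaternionGroup 2 × DihedralGroup 4) = 64 := by
      rw [Nat.card_prod, Nat.card_eq_fintype_card, Nat.card_eq_fintype_card]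
      have e1 : Fintype.card (QuaternionGroup 2) = 8 := by decide +kernel
      have e2 : Fintype.card (DihedralGroup 4) = 8 := by decide +kernel
      rw [e1, e2]
    rw [h6] at h5
    have h7 : 32 ≤ Nat.card F.range := by
      by_contra hlt
      push Not at hlt
      have : Nat.card F.ker * Nat.card F.range ≤ 2 * 31 :=
        Nat.mul_le_mul hker (by omega)
      omega
    apply Subgroup.eq_top_of_card_eq
    apply le_antisymm (Subgroup.card_le_card_group _)
    rw [hcard]
    exact h7
  have hsup : A ⊔ B = ⊤ := by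
    rw [eq_top_iff, ← hFtop]
    rintro _ ⟨⟨p, q⟩, rfl⟩
    exact Subgroup.mul_mem_sup ⟨_, rfl⟩ ⟨_, rfl⟩
  refine ⟨A, B, ⟨(MonoidHom.ofInjective hfQ).symm⟩, ⟨(MonoidHom.ofInjective hfD).symm⟩, hAB, hsup, ?_⟩
  apply le_antisymm
  · rintro x ⟨hxA, hxB⟩
    rw [Subgroup.mem_center_iff]
    intro g
    have hg : g ∈ F.range := hFtop ▸ Subgroup.mem_top g
    obtain ⟨⟨p, q⟩, rfl⟩ := hg
    rw [hF]
    have e1 : x * fQ p = fQ p * x := (hAB _ ⟨p, rfl⟩ _ hxB).symm
    have e2 : x * fD q = fD q * x := hAB _ hxA _ ⟨q, rfl⟩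
    calc fQ p * fD q * x = fQ p * (fD q * x) := by group
      _ = fQ p * (x * fD q) := by rw [e2]
      _ = x * fQ p * fD q := by rw [e1]; group
      _ = x * (fQ p * fD q) := by group
  · intro x hx
    rw [Subgroup.mem_center_iff] at hx
    have hg : x ∈ F.range := hFtop ▸ Subgroup.mem_top x
    obtain ⟨⟨p, q⟩, rfl⟩ := hg
    rw [hF] at hx ⊢
    have hpc : ∀ p', fQ p * fQ p' = fQ p' * fQ p := by
      intro p'
      have e1 := hx (fQ p')
      have e2 := (hcomm p' q).eq
      have e3 : fQ p' * (fQ p * fD q) = (fQ p' * fQ p) * fD q := by group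
      have e4 : fQ p * fD q * fQ p' = (fQ p * fQ p') * fD q := by
        rw [mul_assoc, ← e2, mul_assoc]
      rw [e3, e4] at e1
      exact (mul_right_cancel e1).symm
    have hqc : ∀ q', fD q * fD q' = fD q' * fD q := by
      intro q'
      have e1 := hx (fD q')
      have e2 := (hcomm p q').eq
      have e3 : fD q' * (fQ p * fD q) = fQ p * (fD q' * fD q) := by
        rw [← mul_assoc, ← e2, mul_assoc]
      have e4 : fQ p * fD q * fD q' = fQ p * (fD q * fD q') := by group
      rw [e3, e4] at e1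
      exact (mul_left_cancel e1).symm
    have hzz : z * z = 1 := by
      rw [hz]
      calc a' * a' * (a' * a') = a' ^ 4 := by
            simp only [pow_succ, pow_zero, one_mul, mul_assoc]
        _ = 1 := ha4
    rcases hcenA p hpc with e1 | e1 <;> rcases hcenB q hqc with e2 | e2 <;> rw [e1, e2]
    · simp
    · simpa using (⟨hzA, hzB⟩ : z ∈ A ⊓ B)
    · simpa using (⟨hzA, hzB⟩ : z ∈ A ⊓ B)
    · rw [hzz]; exact (A ⊓ B).one_mem

/-- Recognition from five anticommuting involutions. -/
theorem of_five [Finite G] (hcard : Nat.card G = 32) (y : Fin 5 → G) {z : G} (hz1 : z ≠ 1)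
    (hzz : z * z = 1) (hzc : ∀ g, z * g = g * z) (hsq : ∀ i, y i * y i = 1)
    (hpr : ∀ i j, i ≠ j → (y i * y j) * (y i * y j) = z) :
    ∃ A B : Subgroup G, Nonempty (A ≃* QuaternionGroup 2) ∧ Nonempty (B ≃* DihedralGroup 4) ∧
      (∀ x ∈ A, ∀ y ∈ B, x * y = y * x) ∧ A ⊔ B = ⊤ ∧ A ⊓ B = Subgroup.center G := by
  have hinv : ∀ i, (y i)⁻¹ = y i := fun i => inv_eq_of_mul_eq_one_left (hsq i)
  have hzinv : z⁻¹ = z := inv_eq_of_mul_eq_one_left hzz
  have hswap : ∀ i j, i ≠ j → y j * y i = z * (y i * y j) := by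
    intro i j hij
    have h := hpr i j hij
    calc y j * y i = (y i * y i) * (y j * y i) * (y j * y j) := by
          rw [hsq, hsq, one_mul, mul_one]
      _ = y i * ((y i * y j) * (y i * y j)) * y j := by group
      _ = y i * z * y j := by rw [h]
      _ = z * (y i * y j) := by rw [← hzc (y i), mul_assoc]
  have hcomm3 : ∀ i j k, i ≠ k → j ≠ k → Commute (y i * y j) (y k) := by
    intro i j k hik hjk
    change y i * y j * y k = y k * (y i * y j)
    calc y i * y j * y k = y i * (y j * y k) := by group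
      _ = y i * (z * (y k * y j)) := by rw [hswap k j (Ne.symm hjk)]
      _ = z * ((y i * y k) * y j) := by
          rw [← mul_assoc, ← hzc (y i)]; group
      _ = z * ((z * (y k * y i)) * y j) := by rw [hswap k i (Ne.symm hik)]
      _ = (z * z) * (y k * (y i * y j)) := by
          rw [mul_assoc z (y k * y i), mul_assoc]; group
      _ = y k * (y i * y j) := by rw [hzz, one_mul]
  set a' := y 0 * y 1 with ha'
  set b' := y 0 * y 2 with hb'
  set r := y 3 * y 4 with hr
  set s := y 3 with hs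
  have haa : a' * a' = z := hpr 0 1 (by decide)
  have hbb : b' * b' = z := hpr 0 2 (by decide)
  have hrr : r * r = z := hpr 3 4 (by decide)
  have hpow4 : ∀ t : G, t * t = z → t ^ 4 = 1 := by
    intro t ht
    calc t ^ 4 = (t * t) * (t * t) := by simp only [pow_succ, pow_zero, one_mul, mul_assoc]
      _ = 1 := by rw [ht, hzz]
  have hinv_of : ∀ t : G, t * t = z → t⁻¹ = z * t := by
    intro t ht
    apply inv_eq_of_mul_eq_one_right
    rw [hzc t, ← mul_assoc, ht, hzz]
  have hab : b' * a' * b'⁻¹ = a'⁻¹ := by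
    have e1 : b' * a' = y 1 * y 2 := by
      calc b' * a' = y 0 * (y 2 * y 0) * y 1 := by rw [hb', ha']; group
        _ = y 0 * (z * (y 0 * y 2)) * y 1 := by rw [hswap 0 2 (by decide)]
        _ = z * ((y 0 * y 0) * (y 2 * y 1)) := by
            rw [← mul_assoc (y 0) z, ← hzc (y 0)]; group
        _ = z * (y 2 * y 1) := by rw [hsq, one_mul]
        _ = z * (z * (y 1 * y 2)) := by rw [hswap 1 2 (by decide)]
        _ = y 1 * y 2 := by rw [← mul_assoc, hzz, one_mul]
    have e2 : a' * b' = z * (y 1 * y 2) := by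
      calc a' * b' = y 0 * (y 1 * y 0) * y 2 := by rw [hb', ha']; group
        _ = y 0 * (z * (y 0 * y 1)) * y 2 := by rw [hswap 0 1 (by decide)]
        _ = z * ((y 0 * y 0) * (y 1 * y 2)) := by
            rw [← mul_assoc (y 0) z, ← hzc (y 0)]; group
        _ = z * (y 1 * y 2) := by rw [hsq, one_mul]
    rw [mul_inv_eq_iff_eq_mul, hinv_of a' haa, mul_assoc z a' b', e2, e1, ← mul_assoc, hzz, one_mul]
  have hsr : s * r * s⁻¹ = r⁻¹ := by
    rw [hs, hr, hinv 3, mul_inv_rev, hinv 3, hinv 4]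
    calc y 3 * (y 3 * y 4) * y 3 = (y 3 * y 3) * (y 4 * y 3) := by group
      _ = y 4 * y 3 := by rw [hsq, one_mul]
  refine exists_central_product hcard (hpow4 a' haa) (by rw [haa]; exact hz1)
    (by rw [haa, hbb]) hab (hpow4 r hrr) (by rw [haa, hrr]) (hsq 3) hsr ?_ ?_ ?_ ?_
  · exact (hcomm3 0 1 3 (by decide) (by decide)).mul_right (hcomm3 0 1 4 (by decide) (by decide))
  · exact hcomm3 0 1 3 (by decide) (by decide)
  · exact (hcomm3 0 2 3 (by decide) (by decide)).mul_right (hcomm3 0 2 4 (by decide) (by decide))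
  · exact hcomm3 0 2 3 (by decide) (by decide)

end Cfsg.Agent.Lib.SecRank4.Struct
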