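import Mathlib

/-!
# Two involutory automorphisms with small commutator image and product of order five
-/

set_option autoImplicit false

namespace Cfsg.Agent.Lib.SecRank4.Transv

variable {M : Type*} [Group M]

/-- An order-five element of a small set is trivial. -/
lemma eq_of_pow_five {σ : M → M} (W : Finset M) (hW : W.card ≤ 4) (hσW : ∀ w ∈ W, σ w ∈ W)
    (h5 : ∀ w, σ (σ (σ (σ (σ w)))) = w) {w : M} (hw : w ∈ W) : σ w = w := by
  classical
  have hiter : ∀ k : ℕ, σ^[k] w ∈ W := by
    intro k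
    induction k with
    | zero => exact hw
    | succ k ih =>
      rw [Function.iterate_succ_apply']
      exact hσW _ ih
  -- pigeonhole among `w, σ w, …, σ^4 w`
  have hmaps : ∀ k ∈ Finset.range 5, σ^[k] w ∈ W := fun k _ => hiter k
  obtain ⟨a, ha, b, hb, hab, heq⟩ :
      ∃ a ∈ Finset.range 5, ∃ b ∈ Finset.range 5, a ≠ b ∧ σ^[a] w = σ^[b] w :=
    Finset.exists_ne_map_eq_of_card_lt_of_maps_to (by simp; omega) hmaps
  -- σ is injective
  have hinj : Function.Injective σ := by
    intro x y hxy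
    have := congrArg (fun z => σ (σ (σ (σ z)))) hxy
    simpa [h5] using this
  have hiterinj : ∀ k, Function.Injective (σ^[k]) := fun k => hinj.iterate k
  -- reduce to a difference
  have key : ∀ d : ℕ, 1 ≤ d → d ≤ 4 → σ^[d] w = w → σ w = w := by
    intro d h1 h4 hd
    have hmul : ∀ m : ℕ, σ^[d * m] w = w := by
      intro m
      induction m with
      | zero => rfl
      | succ m ih =>
        rw [Nat.mul_succ, Function.iterate_add_apply, hd, ih]
    have h5' : ∀ m : ℕ, σ^[5 * m] w = w := by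
      intro m
      induction m with
      | zero => rfl
      | succ m ih =>
        rw [Nat.mul_succ, Function.iterate_add_apply]
        have : σ^[5] w = w := h5 w
        rw [this, ih]
    interval_cases d
    · simpa using hd
    · have h6 := hmul 3
      have h7 : σ^[2 * 3] w = σ (σ^[5 * 1] w) := by
        rw [show 2 * 3 = (5 * 1) + 1 by norm_num, Function.iterate_succ_apply']
      rw [h7, h5' 1] at h6
      exact h6
    · have h6 := hmul 2
      have h7 : σ^[3 * 2] w = σ (σ^[5 * 1] w) := by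
        rw [show 3 * 2 = (5 * 1) + 1 by norm_num, Function.iterate_succ_apply']
      rw [h7, h5' 1] at h6
      exact h6
    · have h6 := hmul 4
      have h7 : σ^[4 * 4] w = σ (σ^[5 * 3] w) := by
        rw [show 4 * 4 = (5 * 3) + 1 by norm_num, Function.iterate_succ_apply']
      rw [h7, h5' 3] at h6
      exact h6
  simp only [Finset.mem_range] at ha hb
  rcases Nat.lt_or_gt_of_ne hab with hlt | hlt
  · -- a < b
    apply key (b - a) (by omega) (by omega)
    apply hiterinj a
    rw [← Function.iterate_add_apply, Nat.add_sub_cancel' hlt.le, ← heq]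
  · apply key (a - b) (by omega) (by omega)
    apply hiterinj b
    rw [← Function.iterate_add_apply, Nat.add_sub_cancel' hlt.le, heq]

/-- Two involutory automorphisms of an elementary abelian 2-group, each with commutator image of
order at most two, whose product has fifth power one, have trivial product. -/
theorem mul_eq_one (hM : ∀ m : M, m * m = 1) (τ₁ τ₂ : MulAut M)
    (h₁ : ∀ v, τ₁ (τ₁ v) = v) (h₂ : ∀ v, τ₂ (τ₂ v) = v) (a₁ a₂ : M)
    (hi₁ : ∀ v, v * τ₁ v = 1 ∨ v * τ₁ v = a₁) (hi₂ : ∀ v, v * τ₂ v = 1 ∨ v * τ₂ v = a₂)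
    (h5 : ∀ v, (τ₁ * τ₂) ((τ₁ * τ₂) ((τ₁ * τ₂) ((τ₁ * τ₂) ((τ₁ * τ₂) v)))) = v) :
    τ₁ * τ₂ = 1 := by
  classical
  have hcomm : ∀ x y : M, x * y = y * x := by
    intro x y
    have h := hM (x * y)
    have hx := hM x
    have hy := hM y
    calc x * y = x * (x * y * (x * y)) * y := by rw [h]; simp
      _ = (x * x) * (y * x) * (y * y) := by group
      _ = y * x := by rw [hx, hy]; simp
  letI : CommGroup M := { ‹Group M› with mul_comm := hcomm }
  set σ : MulAut M := τ₁ * τ₂ with hσ
  have hσa : ∀ v, σ v = τ₁ (τ₂ v) := fun _ => rfl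
  have hinv : ∀ x : M, x⁻¹ = x := fun x => inv_eq_of_mul_eq_one_left (hM x)
  -- W
  let W : Finset M := {1, a₁, a₂, a₁ * a₂}
  have hWc : W.card ≤ 4 := Finset.card_le_four
  have hWmul : ∀ x ∈ ({1, a₁} : Finset M), ∀ y ∈ ({1, a₂} : Finset M), x * y ∈ W := by
    intro x hx y hy
    simp only [Finset.mem_insert, Finset.mem_singleton] at hx hy
    rcases hx with rfl | rfl <;> rcases hy with rfl | rfl <;> simp [W]
  -- the key expansion `σ v = v * w` with `w ∈ W`
  have h1a : ∀ v, τ₁ v = v ∨ τ₁ v = v * a₁ := by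
    intro v
    rcases hi₁ v with h | h
    · left
      have : τ₁ v = v⁻¹ := by
        rw [eq_inv_iff_mul_eq_one, mul_comm]; exact h
      rw [this, hinv]
    · right
      rw [← h, ← mul_assoc, hM, one_mul]
  have h2a : ∀ v, τ₂ v = v ∨ τ₂ v = v * a₂ := by
    intro v
    rcases hi₂ v with h | h
    · left
      have : τ₂ v = v⁻¹ := by
        rw [eq_inv_iff_mul_eq_one, mul_comm]; exact h
      rw [this, hinv]
    · right
      rw [← h, ← mul_assoc, hM, one_mul]
  have hexp : ∀ v, ∃ w ∈ W, σ v = v * w := by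
    intro v
    rw [hσa]
    rcases h2a v with h | h
    · rw [h]
      rcases h1a v with h' | h'
      · exact ⟨1, by simp [W], by rw [h']; simp⟩
      · exact ⟨a₁, by simp [W], h'⟩
    · rw [h, map_mul]
      rcases h1a v with h' | h' <;> rcases h1a a₂ with h'' | h''
      · exact ⟨a₂, by simp [W], by rw [h', h'']⟩
      · exact ⟨a₁ * a₂, by simp [W], by rw [h', h'']; simp only [mul_comm a₂ a₁]⟩
      · exact ⟨a₁ * a₂, by simp [W], by rw [h', h'']; simp only [mul_assoc]⟩
      · refine ⟨a₂, by simp [W], ?_⟩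
        rw [h', h'']
        calc v * a₁ * (a₂ * a₁) = v * a₂ * (a₁ * a₁) := by ac_rfl
          _ = v * a₂ := by rw [hM, mul_one]
  -- W is invariant
  have hA₁ : ∀ x ∈ ({1, a₁} : Finset M), ∀ y ∈ ({1, a₁} : Finset M), x * y ∈ ({1, a₁} : Finset M) := by
    intro x hx y hy
    simp only [Finset.mem_insert, Finset.mem_singleton] at hx hy ⊢
    rcases hx with rfl | rfl <;> rcases hy with rfl | rfl <;> simp [hM]
  have hA₂ : ∀ x ∈ ({1, a₂} : Finset M), ∀ y ∈ ({1, a₂} : Finset M), x * y ∈ ({1, a₂} : Finset M) := by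
    intro x hx y hy
    simp only [Finset.mem_insert, Finset.mem_singleton] at hx hy ⊢
    rcases hx with rfl | rfl <;> rcases hy with rfl | rfl <;> simp [hM]
  have hWform : ∀ w ∈ W, ∃ x ∈ ({1, a₁} : Finset M), ∃ y ∈ ({1, a₂} : Finset M), w = x * y := by
    intro w hw
    simp only [W, Finset.mem_insert, Finset.mem_singleton] at hw
    rcases hw with h | h | h | h
    · exact ⟨1, by simp, 1, by simp, by simp [h]⟩
    · exact ⟨a₁, by simp, 1, by simp, by simp [h]⟩
    · exact ⟨1, by simp, a₂, by simp, by simp [h]⟩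
    · exact ⟨a₁, by simp, a₂, by simp, h⟩
  have hWmem : ∀ x ∈ W, ∀ y ∈ W, x * y ∈ W := by
    intro x hx y hy
    obtain ⟨x₁, hx₁, x₂, hx₂, rfl⟩ := hWform x hx
    obtain ⟨y₁, hy₁, y₂, hy₂, rfl⟩ := hWform y hy
    rw [mul_mul_mul_comm]
    exact hWmul _ (hA₁ _ hx₁ _ hy₁) _ (hA₂ _ hx₂ _ hy₂)
  have hσW : ∀ w ∈ W, σ w ∈ W := by
    intro w hw
    obtain ⟨w', hw', h⟩ := hexp w
    rw [h]
    exact hWmem _ hw _ hw'
  have hfix : ∀ w ∈ W, σ w = w := fun w hw =>
    eq_of_pow_five (σ := σ) W hWc hσW h5 hw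
  -- conclusion
  ext v
  obtain ⟨w, hw, h⟩ := hexp v
  have hw1 : σ w = w := hfix w hw
  have s1 : σ v = v * w := h
  have s2 : σ (σ v) = v * (w * w) := by rw [s1, map_mul, s1, hw1, mul_assoc]
  have s2' : σ (σ v) = v := by rw [s2, hM, mul_one]
  have s5 := h5 v
  have : σ (σ (σ (σ (σ v)))) = σ v := by rw [s2', s2']
  rw [this] at s5
  exact s5
end Cfsg.Agent.Lib.SecRank4.Transv
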