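import Cfsg.Agent.Lib.SecRank4.Kill
import Cfsg.Agent.Lib.SecRank4.Orb
import Cfsg.Agent.Lib.SecRank4.Transv
import Cfsg.Agent.Lib.SecRank4.Struct
import Cfsg.Agent.Lib.QuadAct.ZJ
import Cfsg.Agent.Lib.Core.Constrained

/-!
# `O₂(X)` when `X / O₂(X)` contains `A₅` and `X` has sectional 2-rank at most four
-/

set_option autoImplicit false

namespace Cfsg.Agent.Lib.SecRank4.Main

open Cfsg.Agent.Lib.SecRank4.Sect Cfsg.Agent.Lib.SecRank4.Layers Cfsg.Agent.Lib.SecRank4.Step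
open Cfsg.Agent.Lib.SecRank4.Orb Cfsg.Agent.Lib.SecRank4.Kill
open Cfsg.Agent.Lib.PGroups.CentralizerIndex (Sec card_le_of_sectional)

variable {X : Type*} [Group X] [Finite X]

/-- The action on the Frattini quotient has kernel `O₂(X)`. -/
lemma mem_of_actV_eq_one (hchar : Subgroup.centralizer (Cfsg.pCore 2 X : Set X) ≤ Cfsg.pCore 2 X)
    {x : X} (h : actV (Cfsg.pCore 2 X) x = 1) : x ∈ Cfsg.pCore 2 X := by
  classical
  haveI : Fact (Nat.Prime 2) := ⟨Nat.prime_two⟩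
  set Q := Cfsg.pCore 2 X with hQdef
  have hQp : IsPGroup 2 Q := Cfsg.Agent.Lib.Core.Basic.pCore_isPGroup
  haveI hQn : Q.Normal := Cfsg.pCore_normal 2 X
  set Φ : Subgroup X := (frattini ↥Q).map Q.subtype with hΦ
  haveI hΦn : Φ.Normal := inferInstance
  have hDΦ : sqs Q ≤ Φ := by
    rw [sqs, Subgroup.closure_le]
    rintro _ ⟨y, hy, rfl⟩
    have h1 : (⟨y, hy⟩ : Q) ^ 2 ∈ frattini ↥Q := Cfsg.Agent.Lib.PGroups.Basic.pow_mem_frattini hQp _
    refine ⟨_, h1, ?_⟩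
    simp [pow_two]
  have hle : (actV Q).ker ≤ Cfsg.sectionKernel Q Φ := by
    intro g hg
    have hg' : actV Q g = 1 := hg
    change (QuotientGroup.mk' Φ g) ∈ Subgroup.centralizer ((Q.map (QuotientGroup.mk' Φ) : Subgroup (X ⧸ Φ)) : Set (X ⧸ Φ))
    rw [Subgroup.mem_centralizer_iff]
    rintro _ ⟨y, hy, rfl⟩
    have h1 : actV Q g (scMk (sqs Q) y hy) = scMk (sqs Q) y hy := by rw [hg']; rfl
    have h2 : g * y * g⁻¹ * y⁻¹ ∈ sqs Q := scAct_mk_eq_iff.mp h1
    have h3 : (QuotientGroup.mk' Φ) (g * y * g⁻¹ * y⁻¹) = 1 :=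
      (QuotientGroup.eq_one_iff _).mpr (hDΦ h2)
    simp only [map_mul, map_inv] at h3
    have h4 := mul_inv_eq_one.mp h3
    calc (QuotientGroup.mk' Φ) y * (QuotientGroup.mk' Φ) g
        = ((QuotientGroup.mk' Φ) g * (QuotientGroup.mk' Φ) y * ((QuotientGroup.mk' Φ) g)⁻¹) * (QuotientGroup.mk' Φ) g := by
          rw [h4]
      _ = (QuotientGroup.mk' Φ) g * (QuotientGroup.mk' Φ) y := by group
  have hp : IsPGroup 2 (Cfsg.sectionKernel Q Φ) :=
    Cfsg.Agent.Lib.QuadAct.ZJ.isPGroup_sectionKernel hchar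
  exact Cfsg.Agent.Lib.Core.Basic.le_pCore (actV Q).normal_ker (hp.to_le hle) h

/-- First involution. -/
def t₁ : A5 := ⟨Equiv.swap 1 2 * Equiv.swap 3 4, by rw [Equiv.Perm.mem_alternatingGroup]; decide +kernel⟩
/-- Second involution. -/
def t₂ : A5 := ⟨Equiv.swap 0 1 * Equiv.swap 2 3, by rw [Equiv.Perm.mem_alternatingGroup]; decide +kernel⟩

lemma t₁_sq : t₁ * t₁ = 1 := by decide +kernel
lemma t₂_sq : t₂ * t₂ = 1 := by decide +kernel
lemma t₁_ne : t₁ ≠ 1 := by decide +kernel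
lemma t₂_ne : t₂ ≠ 1 := by decide +kernel
lemma t_conj : g₀⁻¹ * t₁ * g₀ = t₂ := by decide +kernel
lemma t_five : (t₁ * t₂) ^ 5 = 1 := by decide +kernel
lemma t_ne : t₁ * t₂ ≠ 1 := by decide +kernel

section ctx

variable {P : Subgroup X} [hPn : P.Normal] (ι : A5 →* X ⧸ P)

/-- The action of `A₅` on the Frattini quotient. -/
noncomputable def rhoV : A5 →* MulAut (VV P) :=
  (QuotientGroup.lift P (actV P) (fun _ hy => actV_of_mem hy)).comp ι

/-- The action of `A₅` on the next layer. -/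
noncomputable def rhoM : A5 →* MulAut (MM P) :=
  (QuotientGroup.lift P (actM P) (fun _ hy => actM_of_mem hy)).comp ι

lemma rhoV_apply {g : A5} {x : X} (h : (x : X ⧸ P) = ι g) : rhoV ι g = actV P x := by
  unfold rhoV
  rw [MonoidHom.comp_apply, ← h]
  rfl

lemma rhoM_apply {g : A5} {x : X} (h : (x : X ⧸ P) = ι g) : rhoM ι g = actM P x := by
  unfold rhoM
  rw [MonoidHom.comp_apply, ← h]
  rfl

lemma exists_lift (g : A5) : ∃ x : X, (x : X ⧸ P) = ι g := QuotientGroup.mk_surjective _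

variable (hker : ∀ x, actV P x = 1 → x ∈ P) (hι : Function.Injective ι)

include hker hι in
lemma rhoV_inj : Function.Injective (rhoV ι) := by
  rw [injective_iff_map_eq_one]
  intro g hg
  obtain ⟨x, hx⟩ := exists_lift ι g
  rw [rhoV_apply ι hx] at hg
  have h1 := hker x hg
  have h2 : (x : X ⧸ P) = 1 := (QuotientGroup.eq_one_iff x).mpr h1
  rw [h2] at hx
  exact hι (by rw [← hx, map_one])

variable (hsec : Cfsg.SectionalPRankLE 2 4 X)

include hsec in
lemma card_V_le : Nat.card (VV P) ≤ 16 := by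
  have hs : Sec P (sqs P) :=
    sec_of_sq (sqs_le P) (fun _ ha => sq_mem_sqs ha)
      (fun h _ c hc => (inferInstance : (sqs P).Normal).conj_mem c hc h)
  have h1 := card_le_of_sectional hsec hs
  have h2 : Nat.card (VV P) * Nat.card (sqs P) = Nat.card P := card_sc (sqs_le P)
  rw [← h2] at h1
  have hpos : 0 < Nat.card (sqs P) := Nat.card_pos
  have h3 : Nat.card (VV P) * Nat.card (sqs P) ≤ 16 * Nat.card (sqs P) := by simpa using h1
  exact Nat.le_of_mul_le_mul_right h3 hpos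

include hker hι hsec in
lemma card_V : Nat.card (VV P) = 16 := by
  classical
  haveI : Fact (Nat.Prime 2) := ⟨Nat.prime_two⟩
  set τ := rhoV ι g₀ with hτ
  have hg5 : g₀ ^ 5 = 1 := by
    have := pow_orderOf_eq_one g₀
    rwa [orderOf_g₀] at this
  have hpow : τ ^ 5 = 1 := by
    rw [hτ, ← map_pow, hg5, map_one]
  have h5 : ∀ x, τ (τ (τ (τ (τ x)))) = x := by
    intro x
    have := congrArg (fun σ : MulAut (VV P) => σ x) hpow
    exact this
  have hne : τ ≠ 1 := by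
    intro h
    have h1 : g₀ = 1 := rhoV_inj ι hker hι (by rw [map_one]; exact h)

    have h2 := orderOf_g₀
    rw [h1, orderOf_one] at h2
    omega
  have h1 := card_modEq_fixed (fun x => τ x) h5
  have h2 : Nat.card {x // τ x = x} = Nat.card (fixS τ) := rfl
  rw [h2] at h1
  have hp : IsPGroup 2 (VV P) := fun v => ⟨1, by rw [pow_one, pow_two]; exact V_sq v⟩
  obtain ⟨n, hn⟩ := IsPGroup.iff_card.mp hp
  have hdvd : Nat.card (fixS τ) ∣ 2 ^ n := hn ▸ Subgroup.card_subgroup_dvd_card _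
  obtain ⟨m, hm, hm'⟩ := (Nat.dvd_prime_pow Nat.prime_two).mp hdvd
  have hle := card_V_le (P := P) hsec
  rw [hn] at hle
  have hn4 : n ≤ 4 := by
    by_contra h
    push Not at h
    have : 2 ^ 5 ≤ 2 ^ n := Nat.pow_le_pow_right (by norm_num) h
    omega
  have hmn : m ≠ n := by
    rintro rfl
    apply hne
    have htop : fixS τ = ⊤ := Subgroup.eq_top_of_card_eq _ (by rw [hm', hn])
    ext v
    have : v ∈ fixS τ := htop ▸ Subgroup.mem_top v
    exact congrArg Subtype.val this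
  rw [hn, hm'] at h1
  rw [hn]
  have hmod : 2 ^ n % 5 = 2 ^ m % 5 := h1
  interval_cases n <;> interval_cases m <;> simp_all

include hker hι hsec in
/-- The involutions act freely. -/
lemma free_of {τ τ' : MulAut (VV P)} (h1 : τ = rhoV ι t₁ ∧ τ' = rhoV ι t₂ ∨ τ = rhoV ι t₂ ∧ τ' = rhoV ι t₁) :
    Nat.card (fixS τ) = 4 ∧ ∀ u, τ u = u → ∃ v, u = v * τ v := by
  have h16 := card_V ι hker hι hsec
  have hτ : ∀ g : A5, g * g = 1 → ∀ v, rhoV ι g (rhoV ι g v) = v := by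
    intro g hg v
    have : rhoV ι g * rhoV ι g = 1 := by rw [← map_mul, hg, map_one]
    exact congrArg (fun σ : MulAut (VV P) => σ v) this
  set η := rhoV ι g₀ with hη
  have hconj : ∀ v, rhoV ι t₂ v = η⁻¹ (rhoV ι t₁ (η v)) := by
    intro v
    have : rhoV ι t₂ = η⁻¹ * rhoV ι t₁ * η := by
      rw [hη, ← map_inv, ← map_mul, ← map_mul, t_conj]
    rw [this]
    rfl
  have hnot : ¬ ((∃ a, ∀ v, v * rhoV ι t₁ v = 1 ∨ v * rhoV ι t₁ v = a) ∧
      (∃ a, ∀ v, v * rhoV ι t₂ v = 1 ∨ v * rhoV ι t₂ v = a)) := by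
    rintro ⟨⟨a₁, ha₁⟩, ⟨a₂, ha₂⟩⟩
    have hfive : ∀ v, (rhoV ι t₁ * rhoV ι t₂) ((rhoV ι t₁ * rhoV ι t₂) ((rhoV ι t₁ * rhoV ι t₂)
        ((rhoV ι t₁ * rhoV ι t₂) ((rhoV ι t₁ * rhoV ι t₂) v)))) = v := by
      intro v
      have h : (rhoV ι t₁ * rhoV ι t₂) ^ 5 = 1 := by
        rw [← map_mul, ← map_pow, t_five, map_one]
      exact congrArg (fun σ : MulAut (VV P) => σ v) h
    have := Cfsg.Agent.Lib.SecRank4.Transv.mul_eq_one V_sq (rhoV ι t₁) (rhoV ι t₂)
      (hτ t₁ t₁_sq) (hτ t₂ t₂_sq) a₁ a₂ ha₁ ha₂ hfive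
    rw [← map_mul] at this
    exact t_ne (rhoV_inj ι hker hι (by rw [this, map_one]))
  -- transfer between the two involutions
  have h12 : (∃ a, ∀ v, v * rhoV ι t₁ v = 1 ∨ v * rhoV ι t₁ v = a) →
      (∃ a, ∀ v, v * rhoV ι t₂ v = 1 ∨ v * rhoV ι t₂ v = a) := by
    rintro ⟨a, ha⟩
    refine ⟨η⁻¹ a, fun v => ?_⟩
    have h2 : v * rhoV ι t₂ v = η⁻¹ (η v * rhoV ι t₁ (η v)) := by
      rw [map_mul, hconj]
      congr 1
      exact (η.symm_apply_apply v).symm
    rw [h2]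
    rcases ha (η v) with h3 | h3
    · left; rw [h3, map_one]
    · right; rw [h3]
  have h21 : (∃ a, ∀ v, v * rhoV ι t₂ v = 1 ∨ v * rhoV ι t₂ v = a) →
      (∃ a, ∀ v, v * rhoV ι t₁ v = 1 ∨ v * rhoV ι t₁ v = a) := by
    rintro ⟨a, ha⟩
    refine ⟨η a, fun v => ?_⟩
    have h2 : v * rhoV ι t₁ v = η (η⁻¹ v * rhoV ι t₂ (η⁻¹ v)) := by
      rw [map_mul, hconj]
      have e1 : η (η⁻¹ v) = v := η.apply_symm_apply v
      rw [e1]
      congr 1
      exact (η.apply_symm_apply _).symm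
    rw [h2]
    rcases ha (η⁻¹ v) with h3 | h3
    · left; rw [h3, map_one]
    · right; rw [h3]
  rcases h1 with ⟨rfl, rfl⟩ | ⟨rfl, rfl⟩
  · exact free_of_large V_sq _ (hτ t₁ t₁_sq) h16 (fun h => hnot ⟨h, h12 h⟩)
  · exact free_of_large V_sq _ (hτ t₂ t₂_sq) h16 (fun h => hnot ⟨h21 h, h⟩)

include hker hι hsec in
/-- Small commutator image on the next layer. -/
lemma small_image {t : A5} (ht : t * t = 1) (hne : t ≠ 1)
    (hfree : Nat.card (fixS (rhoV ι t)) = 4 ∧ ∀ u, rhoV ι t u = u → ∃ v, u = v * rhoV ι t v) :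
    ∃ a, ∀ m, m * rhoM ι t m = 1 ∨ m * rhoM ι t m = a := by
  obtain ⟨x₀, hx₀⟩ := exists_lift ι t
  have hx₀2 : x₀ * x₀ ∈ P := by
    rw [← QuotientGroup.eq_one_iff, QuotientGroup.mk_mul, hx₀, ← map_mul, ht, map_one]
  have hact₀ := rhoV_apply ι hx₀
  obtain ⟨y, hy, hxy⟩ := exists_good_lift hx₀2 (by
    rw [← hact₀]; exact hfree.2)
  have hx : ((x₀ * y : X) : X ⧸ P) = ι t := by
    rw [QuotientGroup.mk_mul, hx₀, (QuotientGroup.eq_one_iff y).mpr hy, mul_one]
  have hxP : x₀ * y ∉ P := by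
    intro h
    have h1 : ((x₀ * y : X) : X ⧸ P) = 1 := (QuotientGroup.eq_one_iff _).mpr h
    rw [hx] at h1
    exact hne (hι (by rw [h1, map_one]))
  have hfix : Nat.card (fixS (actV P (x₀ * y))) = 4 := by
    rw [← rhoV_apply ι hx]; exact hfree.1
  have hbound := index_bound hsec hxP hxy hfix
  rw [← rhoM_apply ι hx] at hbound
  apply image_le_two M_sq _ _ hbound
  intro v
  have : rhoM ι t * rhoM ι t = 1 := by rw [← map_mul, ht, map_one]
  exact congrArg (fun σ : MulAut (MM P) => σ v) this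

include hker hι hsec in
/-- `A₅` acts trivially on the next layer. -/
lemma rhoM_trivial (g : A5) : rhoM ι g = 1 := by
  have hτ : ∀ g : A5, g * g = 1 → ∀ v, rhoM ι g (rhoM ι g v) = v := by
    intro g hg v
    have : rhoM ι g * rhoM ι g = 1 := by rw [← map_mul, hg, map_one]
    exact congrArg (fun σ : MulAut (MM P) => σ v) this
  obtain ⟨a₁, ha₁⟩ := small_image ι hker hι hsec t₁_sq t₁_ne
    (free_of ι hker hι hsec (Or.inl ⟨rfl, rfl⟩))
  obtain ⟨a₂, ha₂⟩ := small_image ι hker hι hsec t₂_sq t₂_ne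
    (free_of ι hker hι hsec (Or.inr ⟨rfl, rfl⟩))
  have hfive : ∀ v, (rhoM ι t₁ * rhoM ι t₂) ((rhoM ι t₁ * rhoM ι t₂) ((rhoM ι t₁ * rhoM ι t₂)
      ((rhoM ι t₁ * rhoM ι t₂) ((rhoM ι t₁ * rhoM ι t₂) v)))) = v := by
    intro v
    have h : (rhoM ι t₁ * rhoM ι t₂) ^ 5 = 1 := by
      rw [← map_mul, ← map_pow, t_five, map_one]
    exact congrArg (fun σ : MulAut (MM P) => σ v) h
  have h1 := Cfsg.Agent.Lib.SecRank4.Transv.mul_eq_one M_sq (rhoM ι t₁) (rhoM ι t₂)
    (hτ t₁ t₁_sq) (hτ t₂ t₂_sq) a₁ a₂ ha₁ ha₂ hfive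
  rw [← map_mul] at h1
  have hker' : (rhoM ι).ker = ⊤ := by
    rcases IsSimpleGroup.eq_bot_or_eq_top_of_normal (rhoM ι).ker (rhoM ι).normal_ker with h | h
    · exfalso
      have : t₁ * t₂ ∈ (rhoM ι).ker := h1
      rw [h, Subgroup.mem_bot] at this
      exact t_ne this
    · exact h
  have : g ∈ (rhoM ι).ker := hker' ▸ Subgroup.mem_top g
  exact this

include hker hι hsec in
lemma sq_inv (g : A5) (v : VV P) : Step.sq (rhoV ι g v) = Step.sq v := by
  obtain ⟨x, hx⟩ := exists_lift ι g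
  rw [rhoV_apply ι hx, sq_act, ← rhoM_apply ι hx, rhoM_trivial ι hker hι hsec]
  rfl

include hker hι hsec in
/-- The concrete form of the dichotomy. -/
theorem main_of_layers (hP : IsPGroup 2 P) :
    ((∀ y ∈ P, y * y = 1) ∧ Nat.card P = 16) ∨
      (Nat.card P = 32 ∧ ∃ A B : Subgroup P,
        Nonempty (A ≃* QuaternionGroup 2) ∧ Nonempty (B ≃* DihedralGroup 4) ∧
          (∀ a ∈ A, ∀ b ∈ B, a * b = b * a) ∧ A ⊔ B = ⊤ ∧ A ⊓ B = Subgroup.center P) := by
  classical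
  have hV16 := card_V ι hker hι hsec
  have hcardP : Nat.card (VV P) * Nat.card (sqs P) = Nat.card P := card_sc (sqs_le P)
  have hρ := rhoV_inj ι hker hι
  have hsqmem : ∀ y (hy : y ∈ P), Step.sq (scMk (sqs P) y hy) = 1 → y * y ∈ nxt P (sqs P) := by
    intro y hy h
    rw [sq_mk] at h
    exact scMk_eq_one_iff.mp h
  rcases Orb.core V_sq M_sq hV16 (rhoV ι) hρ Step.sq sq_one (sq_inv ι hker hι hsec) sq_polar with
    h1 | ⟨e, β, hβ, he, hprod, hse, hsee, hall⟩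
  · -- the elementary abelian case
    left
    have hle : sqs P ≤ nxt P (sqs P) := by
      rw [sqs, Subgroup.closure_le]
      rintro _ ⟨y, hy, rfl⟩
      exact hsqmem y hy (h1 _)
    have hbot : sqs P = ⊥ := by
      by_contra hne
      exact not_le_nxt hP (sqs_le P) hne hle
    refine ⟨fun y hy => ?_, ?_⟩
    · have := sq_mem_sqs hy
      rwa [hbot, Subgroup.mem_bot] at this
    · rw [← hcardP, hV16, hbot]
      simp
  -- the extraspecial case
  right
  obtain ⟨z, hzD, rfl⟩ := scMk_surj β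
  have hzK : z ∉ nxt P (sqs P) := fun h => hβ (scMk_eq_one_iff.mpr h)
  have hzz : z * z ∈ nxt P (sqs P) := sq_mem_nxt hzD
  haveI hKn : (nxt P (sqs P)).Normal := inferInstance
  haveI hDn : (sqs P).Normal := inferInstance
  -- lifts
  let y : Fin 5 → X := fun i => lift (e i)
  have hy : ∀ i, y i ∈ P := fun i => lift_mem (e i)
  have hyspec : ∀ i, e i = scMk (sqs P) (y i) (hy i) := fun i => lift_spec (e i)
  have hysq : ∀ i, y i * y i ∈ nxt P (sqs P) := by
    intro i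
    apply hsqmem (y i) (hy i)
    rw [← hyspec]
    exact hse i
  have hypr : ∀ i j, i ≠ j → z⁻¹ * ((y i * y j) * (y i * y j)) ∈ nxt P (sqs P) := by
    intro i j hij
    have h := hsee i j hij
    rw [hyspec i, hyspec j, scMk_mul, sq_mk] at h
    exact scMk_eq_iff.mp h.symm
  -- the sqaure map takes only two values
  have hsqval : ∀ a (ha : a ∈ P), a * a ∈ nxt P (sqs P) ∨ z⁻¹ * (a * a) ∈ nxt P (sqs P) := by
    intro a ha
    rcases hall (scMk (sqs P) a ha) with h | ⟨i, h⟩ | ⟨i, j, hij, h⟩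
    · left
      apply hsqmem a ha
      rw [h, sq_one]
    · left
      apply hsqmem a ha
      rw [h]
      exact hse i
    · right
      have h2 := hsee i j hij
      rw [← h, sq_mk] at h2
      exact scMk_eq_iff.mp h2.symm
  have hDK : ∀ d ∈ sqs P, d ∈ nxt P (sqs P) ∨ z⁻¹ * d ∈ nxt P (sqs P) := by
    intro d hd
    induction hd using Subgroup.closure_induction with
    | mem d hd =>
      obtain ⟨a, ha, rfl⟩ := hd
      exact hsqval a ha
    | one => exact Or.inl (nxt P (sqs P)).one_mem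
    | mul a b _ _ ha hb =>
      rcases ha with ha | ha <;> rcases hb with hb | hb
      · exact Or.inl ((nxt P (sqs P)).mul_mem ha hb)
      · right
        have h1 := hKn.conj_mem _ ha z⁻¹
        have h2 : z⁻¹ * (a * b) = (z⁻¹ * a * z⁻¹⁻¹) * (z⁻¹ * b) := by group
        rw [h2]
        exact (nxt P (sqs P)).mul_mem h1 hb
      · right
        have h2 : z⁻¹ * (a * b) = (z⁻¹ * a) * b := by group
        rw [h2]
        exact (nxt P (sqs P)).mul_mem ha hb
      · left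
        have h1 := hKn.conj_mem _ ha z
        have h2 : a * b = (z * (z⁻¹ * a) * z⁻¹) * (z * z) * (z⁻¹ * b) := by group
        rw [h2]
        exact (nxt P (sqs P)).mul_mem ((nxt P (sqs P)).mul_mem h1 hzz) hb
    | inv a _ ha =>
      rcases ha with ha | ha
      · exact Or.inl ((nxt P (sqs P)).inv_mem ha)
      · right
        have h1 := hKn.conj_mem _ ((nxt P (sqs P)).inv_mem ha) z⁻¹
        have h2 : z⁻¹ * a⁻¹ = (z⁻¹ * (z⁻¹ * a)⁻¹ * z⁻¹⁻¹) * (z * z)⁻¹ := by group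
        rw [h2]
        exact (nxt P (sqs P)).mul_mem h1 ((nxt P (sqs P)).inv_mem hzz)
  -- the commutator of two lifts
  have hcz : z⁻¹ * (y 1 * y 0 * (y 1)⁻¹ * (y 0)⁻¹) ∈ nxt P (sqs P) := by
    set c := y 1 * y 0 * (y 1)⁻¹ * (y 0)⁻¹ with hc
    have hcD : c ∈ sqs P := comm_mem_sqs (hy 1) (hy 0)
    have ha := comm_D_P hcD (hy 0)
    set a := y 0 * c * (y 0)⁻¹ * c⁻¹ with haDef
    have hw : (y 0 * y 1) * (y 0 * y 1) = a * c * (y 0 * y 0) * (y 1 * y 1) := by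
      rw [haDef, hc]; group
    have h01 := hypr 0 1 (by decide)
    rw [hw] at h01
    have h2 : z⁻¹ * c = (z⁻¹ * (a * c * (y 0 * y 0) * (y 1 * y 1))) *
        ((y 1 * y 1)⁻¹ * (y 0 * y 0)⁻¹ * (c⁻¹ * a⁻¹ * c⁻¹⁻¹)) := by group
    rw [h2]
    refine (nxt P (sqs P)).mul_mem h01 ((nxt P (sqs P)).mul_mem ((nxt P (sqs P)).mul_mem
      ((nxt P (sqs P)).inv_mem (hysq 1)) ((nxt P (sqs P)).inv_mem (hysq 0))) ?_)
    exact hKn.conj_mem _ ((nxt P (sqs P)).inv_mem ha) c⁻¹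
  obtain ⟨x₀, hx₀⟩ := exists_lift ι g₀
  have hact₀ := rhoV_apply ι hx₀
  -- invariant subgroups
  have hinvL : ∀ L : Subgroup X, L.Normal → sqs P ≤ L → L ≤ P → L = sqs P ∨ L = P := by
    intro L hLn hDL hLP
    let W : Subgroup (VV P) := (L.map (QuotientGroup.mk' (sqs P))).subgroupOf (Sc (sqs P) P)
    have hmemW : ∀ a (ha : a ∈ P), scMk (sqs P) a ha ∈ W ↔ a ∈ L := by
      intro a ha
      constructor
      · rintro ⟨l, hl, hla⟩
        have h1 : (QuotientGroup.mk l : X ⧸ sqs P) = QuotientGroup.mk a := hla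
        rw [QuotientGroup.eq] at h1
        have := L.mul_mem hl (hDL h1)
        simpa using this
      · intro h
        exact ⟨a, h, rfl⟩
    have hW : ∀ w ∈ W, rhoV ι g₀ w ∈ W := by
      intro w hw
      obtain ⟨a, ha, rfl⟩ := scMk_surj w
      rw [hact₀, scAct_mk, hmemW]
      exact hLn.conj_mem a ((hmemW a ha).mp hw) x₀
    rcases sub_invariant hV16 (rhoV ι) hρ orderOf_g₀ W hW with h | h
    · left
      apply le_antisymm _ hDL
      intro a ha
      have h1 : scMk (sqs P) a (hLP ha) ∈ W := (hmemW a (hLP ha)).mpr ha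
      rw [h, Subgroup.mem_bot] at h1
      exact scMk_eq_one_iff.mp h1
    · right
      apply le_antisymm hLP
      intro a ha
      exact (hmemW a ha).mp (h ▸ Subgroup.mem_top _)
  have hfixv : ∀ a ∈ P, (∀ x : X, x * a * x⁻¹ * a⁻¹ ∈ sqs P) → a ∈ sqs P := by
    intro a ha h
    have h1 : rhoV ι g₀ (scMk (sqs P) a ha) = scMk (sqs P) a ha := by
      rw [hact₀]
      exact scAct_mk_eq_iff.mpr (h x₀)
    have h2 := fix_of_order_five hV16 (rhoV ι) hρ orderOf_g₀ h1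
    exact scMk_eq_one_iff.mp h2
  have hkill := kill hsec hV16 hzD hzK hDK (hy 0) (hy 1) hcz hinvL hfixv
  have hK0 : nxt P (sqs P) = ⊥ := by
    by_contra hne
    exact not_le_nxt hP ((nxt_le P (sqs P)).trans (sqs_le P)) hne hkill
  have hmemK : ∀ {a : X}, a ∈ nxt P (sqs P) → a = 1 := by
    intro a ha
    rwa [hK0, Subgroup.mem_bot] at ha
  have hz1 : z ≠ 1 := fun h => hzK (h ▸ (nxt P (sqs P)).one_mem)
  have hzz1 : z * z = 1 := hmemK hzz
  have hDcard : Nat.card (sqs P) = 2 := by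
    rw [Nat.card_eq_two_iff' (1 : sqs P)]
    refine ⟨⟨z, hzD⟩, ?_, ?_⟩
    · intro h
      exact hz1 (congrArg Subtype.val h)
    · rintro ⟨d, hd⟩ hne
      rcases hDK d hd with h | h
      · exact absurd (Subtype.ext (hmemK h)) hne
      · have := hmemK h
        exact Subtype.ext (inv_mul_eq_one.mp this).symm
  have hcard32 : Nat.card P = 32 := by
    rw [← hcardP, hV16, hDcard]
  refine ⟨hcard32, ?_⟩
  have hzP : z ∈ P := sqs_le P hzD
  refine Cfsg.Agent.Lib.SecRank4.Struct.of_five hcard32 (fun i => (⟨y i, hy i⟩ : P))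
    (z := ⟨z, hzP⟩) ?_ ?_ ?_ ?_ ?_
  · intro h
    exact hz1 (congrArg Subtype.val h)
  · exact Subtype.ext hzz1
  · rintro ⟨g, hg⟩
    apply Subtype.ext
    have h1 := hmemK (comm_D_P hzD hg)
    have h2 : g * z * g⁻¹ = z := mul_inv_eq_one.mp h1
    change z * g = g * z
    calc z * g = g * z * g⁻¹ * g := by rw [h2]
      _ = g * z := by group
  · intro i
    exact Subtype.ext (hmemK (hysq i))
  · intro i j hij
    apply Subtype.ext
    exact (inv_mul_eq_one.mp (hmemK (hypr i j hij))).symm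

end ctx

/-- The target statement, in terms of the 2-core. -/
theorem main_thm (hchar : Subgroup.centralizer (Cfsg.pCore 2 X : Set X) ≤ Cfsg.pCore 2 X)
    (h4 : Cfsg.SectionalPRankLE 2 4 X)
    (hQ : ∃ A : Subgroup (X ⧸ Cfsg.pCore 2 X), Nonempty (↥A ≃* ↥(alternatingGroup (Fin 5)))) :
    (Cfsg.IsElementaryAbelian 2 (Cfsg.pCore 2 X) ∧ Nat.card ↥(Cfsg.pCore 2 X) = 16) ∨
      (Nat.card ↥(Cfsg.pCore 2 X) = 32 ∧ ∃ A B : Subgroup ↥(Cfsg.pCore 2 X),
        Nonempty (↥A ≃* QuaternionGroup 2) ∧ Nonempty (↥B ≃* DihedralGroup 4) ∧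
        (∀ a ∈ A, ∀ b ∈ B, a * b = b * a) ∧
          A ⊔ B = ⊤ ∧ A ⊓ B = Subgroup.center ↥(Cfsg.pCore 2 X)) := by
  haveI : Fact (Nat.Prime 2) := ⟨Nat.prime_two⟩
  obtain ⟨A, ⟨e⟩⟩ := hQ
  haveI hn : (Cfsg.pCore 2 X).Normal := Cfsg.pCore_normal 2 X
  have hP : IsPGroup 2 (Cfsg.pCore 2 X) := Cfsg.Agent.Lib.Core.Basic.pCore_isPGroup
  let ι : A5 →* X ⧸ Cfsg.pCore 2 X := A.subtype.comp e.symm.toMonoidHom
  have hι : Function.Injective ι :=
    (Subgroup.subtype_injective A).comp e.symm.injective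
  have hker : ∀ x, actV (Cfsg.pCore 2 X) x = 1 → x ∈ Cfsg.pCore 2 X :=
    fun x hx => mem_of_actV_eq_one hchar hx
  rcases main_of_layers ι hker hι h4 hP with ⟨h1, h2⟩ | h
  · left
    refine ⟨⟨⟨⟨?_⟩⟩, fun a ha => (by rw [pow_two]; exact h1 a ha)⟩, h2⟩
    intro a b
    have h3 : ∀ m : Cfsg.pCore 2 X, m * m = 1 := fun m => Subtype.ext (h1 m m.2)
    exact comm_of_sq h3 a b
  · exact Or.inr h

end Cfsg.Agent.Lib.SecRank4.Main
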