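import Cfsg.Agent.Lib.PGroups.Basic
import Cfsg.Agent.Lib.PGroups.CentralizerIndex

/-!
# Sections of a finite group as concrete groups with a conjugation action
-/

set_option autoImplicit false

namespace Cfsg.Agent.Lib.SecRank4.Sect

variable {X : Type*} [Group X]

/-- The section `B / A` (with `A` normal), as a subgroup of `X / A`. -/
abbrev Sc (A B : Subgroup X) [A.Normal] : Subgroup (X ⧸ A) := B.map (QuotientGroup.mk' A)

instance sc_normal (A B : Subgroup X) [A.Normal] [B.Normal] : (Sc A B).Normal :=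
  Subgroup.Normal.map ‹_› _ (QuotientGroup.mk'_surjective A)

/-- Conjugation action on a section. -/
noncomputable def scAct (A B : Subgroup X) [A.Normal] [B.Normal] : X →* MulAut (Sc A B) :=
  (MulAut.conjNormal (H := Sc A B)).comp (QuotientGroup.mk' A)

/-- An element of `B` as an element of the section. -/
def scMk (A : Subgroup X) {B : Subgroup X} [A.Normal] (y : X) (hy : y ∈ B) : Sc A B :=
  ⟨QuotientGroup.mk' A y, Subgroup.mem_map_of_mem _ hy⟩

section basic

variable {A B : Subgroup X} [A.Normal]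

lemma scMk_surj (v : Sc A B) : ∃ (y : X) (hy : y ∈ B), v = scMk A y hy := by
  obtain ⟨v, y, hy, rfl⟩ := v
  exact ⟨y, hy, rfl⟩

lemma scMk_eq_iff {y y' : X} {hy : y ∈ B} {hy' : y' ∈ B} :
    scMk A y hy = scMk A y' hy' ↔ y⁻¹ * y' ∈ A := by
  rw [Subtype.ext_iff]
  change (QuotientGroup.mk y : X ⧸ A) = QuotientGroup.mk y' ↔ _
  rw [QuotientGroup.eq]

lemma scMk_mul {y y' : X} (hy : y ∈ B) (hy' : y' ∈ B) :
    scMk A y hy * scMk A y' hy' = scMk A (y * y') (B.mul_mem hy hy') := rfl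

lemma scMk_one : scMk A (1 : X) (B.one_mem) = 1 := by
  apply Subtype.ext
  change (QuotientGroup.mk' A) 1 = 1
  exact map_one _

lemma scMk_inv {y : X} (hy : y ∈ B) : (scMk A y hy)⁻¹ = scMk A y⁻¹ (B.inv_mem hy) := rfl

lemma scMk_eq_one_iff {y : X} {hy : y ∈ B} : scMk A y hy = 1 ↔ y ∈ A := by
  rw [← scMk_one (A := A) (B := B), scMk_eq_iff]
  simp

lemma scAct_mk [B.Normal] (x y : X) (hy : y ∈ B) :
    scAct A B x (scMk A y hy) =
      scMk A (x * y * x⁻¹) (Subgroup.Normal.conj_mem ‹_› y hy x) := rfl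

lemma scAct_mk_eq_iff [B.Normal] {x y : X} {hy : y ∈ B} :
    scAct A B x (scMk A y hy) = scMk A y hy ↔ x * y * x⁻¹ * y⁻¹ ∈ A := by
  rw [scAct_mk, scMk_eq_iff]
  have hN : A.Normal := inferInstance
  constructor
  · intro h
    have h1 := hN.conj_mem _ (A.inv_mem h) y⁻¹
    have h2 : y⁻¹⁻¹ * ((x * y * x⁻¹)⁻¹ * y)⁻¹ * y⁻¹⁻¹⁻¹ = x * y * x⁻¹ * y⁻¹ := by group
    rw [← h2]
    have h3 := hN.conj_mem _ (A.inv_mem h) y
    simpa using h3
  · intro h
    have h1 := hN.conj_mem _ (A.inv_mem h) y⁻¹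
    have h2 : y⁻¹ * (x * y * x⁻¹ * y⁻¹)⁻¹ * y⁻¹⁻¹ = (x * y * x⁻¹)⁻¹ * y := by group
    rwa [h2] at h1

lemma scAct_eq_one [B.Normal] {x : X} (h : ∀ y ∈ B, x * y * x⁻¹ * y⁻¹ ∈ A) : scAct A B x = 1 := by
  ext v
  obtain ⟨y, hy, rfl⟩ := scMk_surj v
  have := scAct_mk_eq_iff (A := A) (B := B) (x := x) (y := y) (hy := hy)
  rw [this.mpr (h y hy)]
  rfl

lemma card_sc [Finite X] (hAB : A ≤ B) : Nat.card (Sc A B) * Nat.card A = Nat.card B := by
  let f : B →* Sc A B :=
    { toFun := fun y => scMk A (y : X) y.2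
      map_one' := scMk_one
      map_mul' := fun _ _ => rfl }
  have hsurj : Function.Surjective f := by
    intro v
    obtain ⟨y, hy, rfl⟩ := scMk_surj v
    exact ⟨⟨y, hy⟩, rfl⟩
  have h1 := f.ker.card_mul_index
  rw [Subgroup.index_ker, MonoidHom.range_eq_top.mpr hsurj, Subgroup.card_top] at h1
  have h2 : f.ker = A.subgroupOf B := by
    ext y
    rw [MonoidHom.mem_ker, Subgroup.mem_subgroupOf]
    exact scMk_eq_one_iff (hy := y.2)
  rw [h2] at h1
  have h3 : Nat.card (A.subgroupOf B) = Nat.card A :=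
    Nat.card_congr (Subgroup.subgroupOfEquivOfLe hAB).toEquiv
  rw [h3] at h1
  rw [← h1, mul_comm]

/-- Preimage of a subgroup of the section. -/
def pre (F : Subgroup (Sc A B)) : Subgroup X :=
  (F.map (Sc A B).subtype).comap (QuotientGroup.mk' A)

lemma mem_pre_iff (F : Subgroup (Sc A B)) {y : X} (hy : y ∈ B) :
    y ∈ pre F ↔ scMk A y hy ∈ F := by
  constructor
  · rintro ⟨v, hv, hvy⟩
    have : v = scMk A y hy := Subtype.ext hvy
    rwa [← this]
  · intro h
    exact ⟨_, h, rfl⟩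

lemma pre_le (hAB : A ≤ B) (F : Subgroup (Sc A B)) : pre F ≤ B := by
  rintro y ⟨v, hv, hvy⟩
  obtain ⟨b, hb, hbv⟩ := v.2
  have h1 : (QuotientGroup.mk b : X ⧸ A) = QuotientGroup.mk y := hbv.trans hvy
  rw [QuotientGroup.eq] at h1
  have := B.mul_mem hb (hAB h1)
  simpa using this

lemma le_pre (hAB : A ≤ B) (F : Subgroup (Sc A B)) : A ≤ pre F := by
  intro a ha
  rw [mem_pre_iff F (hAB ha)]
  rw [(scMk_eq_one_iff (A := A) (B := B) (hy := hAB ha)).mpr ha]
  exact F.one_mem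

lemma card_pre [Finite X] (hAB : A ≤ B) (F : Subgroup (Sc A B)) :
    Nat.card (pre F) = Nat.card F * Nat.card A := by
  have h1 := card_sc (A := A) (B := pre F) (le_pre hAB F)
  have h2 : Sc A (pre F) = F.map (Sc A B).subtype := by
    rw [Sc, pre, Subgroup.map_comap_eq_self_of_surjective (QuotientGroup.mk'_surjective A)]
  rw [h2] at h1
  have h3 : Nat.card (F.map (Sc A B).subtype) = Nat.card F :=
    Nat.card_congr (Subgroup.equivMapOfInjective F _ (Subgroup.subtype_injective _)).symm.toEquiv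
  rw [h3] at h1
  exact h1.symm

end basic

section fixed

variable {S : Type*} [Group S]

/-- Fixed points of an automorphism. -/
def fixS (τ : MulAut S) : Subgroup S where
  carrier := {x | τ x = x}
  mul_mem' := fun {a b} ha hb => by
    change τ a = a at ha
    change τ b = b at hb
    change τ (a * b) = a * b
    rw [map_mul, ha, hb]
  one_mem' := map_one τ
  inv_mem' := fun {a} ha => by
    change τ a = a at ha
    change τ a⁻¹ = a⁻¹
    rw [map_inv, ha]

lemma mem_fixS {τ : MulAut S} {x : S} : x ∈ fixS τ ↔ τ x = x := Iff.rfl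

lemma comm_of_sq (hS : ∀ m : S, m * m = 1) (x y : S) : x * y = y * x := by
  have h := hS (x * y)
  calc x * y = x * (x * y * (x * y)) * y := by rw [h]; simp
    _ = (x * x) * (y * x) * (y * y) := by group
    _ = y * x := by rw [hS, hS]; simp

/-- The commutator map of an involutive automorphism of an elementary abelian 2-group, as a hom,
with its basic numerics. -/
lemma card_norm [Finite S] (hS : ∀ m : S, m * m = 1) (τ : MulAut S) (hτ : ∀ v, τ (τ v) = v) :
    ∃ R : Subgroup S, (∀ r, r ∈ R ↔ ∃ v, r = v * τ v) ∧ R ≤ fixS τ ∧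
      Nat.card R * Nat.card (fixS τ) = Nat.card S := by
  letI : CommGroup S := { ‹Group S› with mul_comm := comm_of_sq hS }
  let N : S →* S :=
    { toFun := fun v => v * τ v
      map_one' := by simp
      map_mul' := fun a b => by
        rw [map_mul]
        exact mul_mul_mul_comm _ _ _ _ }
  have hinv : ∀ x : S, x⁻¹ = x := fun x => inv_eq_of_mul_eq_one_left (hS x)
  have hker : N.ker = fixS τ := by
    ext v
    rw [MonoidHom.mem_ker, mem_fixS]
    change v * τ v = 1 ↔ _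
    constructor
    · intro h
      have := eq_inv_of_mul_eq_one_right h
      rwa [hinv] at this
    · intro h
      rw [h]
      exact hS v
  refine ⟨N.range, fun r => ?_, ?_, ?_⟩
  · rw [MonoidHom.mem_range]
    constructor
    · rintro ⟨v, rfl⟩
      exact ⟨v, rfl⟩
    · rintro ⟨v, rfl⟩
      exact ⟨v, rfl⟩
  · rintro _ ⟨v, rfl⟩
    change τ (v * τ v) = v * τ v
    rw [map_mul, hτ]
    exact mul_comm _ _
  · have h1 := N.ker.card_mul_index
    rw [Subgroup.index_ker, hker] at h1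
    rw [mul_comm]
    exact h1

/-- A subgroup of order at most two. -/
lemma exists_of_card_le_two [Finite S] (R : Subgroup S) (h : Nat.card R ≤ 2) :
    ∃ a : S, ∀ r ∈ R, r = 1 ∨ r = a := by
  classical
  by_cases hb : R = ⊥
  · refine ⟨1, fun r hr => ?_⟩
    rw [hb] at hr
    exact Or.inl ((Subgroup.mem_bot).mp hr)
  obtain ⟨a, ha, ha1⟩ := R.bot_or_exists_ne_one.resolve_left hb
  refine ⟨a, fun r hr => ?_⟩
  by_contra hcon
  push Not at hcon
  have hinj : Function.Injective (fun i : Fin 3 =>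
      (![(⟨1, R.one_mem⟩ : R), ⟨a, ha⟩, ⟨r, hr⟩] i)) := by
    intro i j hij
    fin_cases i <;> fin_cases j <;> first | rfl | skip
    all_goals exfalso
    all_goals simp [Subtype.ext_iff] at hij
    all_goals first | exact ha1 hij | exact ha1 hij.symm | exact hcon.1 hij | exact hcon.1 hij.symm
                    | exact hcon.2 hij | exact hcon.2 hij.symm
  have := Nat.card_le_card_of_injective _ hinj
  simp only [Nat.card_eq_fintype_card (α := Fin 3), Fintype.card_fin] at this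
  omega

lemma image_le_two [Finite S] (hS : ∀ m : S, m * m = 1) (τ : MulAut S) (hτ : ∀ v, τ (τ v) = v)
    (hc : Nat.card S ≤ 2 * Nat.card (fixS τ)) :
    ∃ a : S, ∀ v, v * τ v = 1 ∨ v * τ v = a := by
  obtain ⟨R, hR, -, hcard⟩ := card_norm hS τ hτ
  have hpos : 0 < Nat.card (fixS τ) := Nat.card_pos
  have h2 : Nat.card R ≤ 2 := by
    rw [← hcard] at hc
    exact Nat.le_of_mul_le_mul_right hc hpos
  obtain ⟨a, ha⟩ := exists_of_card_le_two R h2
  exact ⟨a, fun v => ha _ ((hR _).mpr ⟨v, rfl⟩)⟩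

lemma free_of_large [Finite S] (hS : ∀ m : S, m * m = 1) (τ : MulAut S) (hτ : ∀ v, τ (τ v) = v)
    (h16 : Nat.card S = 16) (hne : ¬ ∃ a : S, ∀ v, v * τ v = 1 ∨ v * τ v = a) :
    Nat.card (fixS τ) = 4 ∧ ∀ u, τ u = u → ∃ v, u = v * τ v := by
  obtain ⟨R, hR, hle, hcard⟩ := card_norm hS τ hτ
  have h3 : ¬ Nat.card R ≤ 2 := by
    intro h
    obtain ⟨a, ha⟩ := exists_of_card_le_two R h
    exact hne ⟨a, fun v => ha _ ((hR _).mpr ⟨v, rfl⟩)⟩
  have hle' : Nat.card R ≤ Nat.card (fixS τ) := Subgroup.card_le_of_le hle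
  rw [h16] at hcard
  have h4 : Nat.card R = 4 ∧ Nat.card (fixS τ) = 4 := by
    have hdvd : Nat.card R ∣ 16 := ⟨_, hcard.symm⟩
    have hle2 : Nat.card R ≤ 16 := Nat.le_of_dvd (by norm_num) hdvd
    have hfix : Nat.card (fixS τ) ≤ 16 := by
      apply Nat.le_of_dvd (by norm_num)
      exact ⟨_, (by rw [mul_comm]; exact hcard.symm)⟩
    interval_cases hr : Nat.card R <;> omega
  refine ⟨h4.2, fun u hu => ?_⟩
  have heq : R = fixS τ := Subgroup.eq_of_le_of_card_ge hle (by rw [h4.1, h4.2])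
  have : u ∈ R := heq ▸ hu
  exact (hR u).mp this

end fixed

section sec

/-- Elementary abelian sections from squares. -/
lemma sec_of_sq {H K : Subgroup X} (hle : K ≤ H) (hsq : ∀ a ∈ H, a * a ∈ K)
    (hn : ∀ h ∈ H, ∀ c ∈ K, h * c * h⁻¹ ∈ K) :
    Cfsg.Agent.Lib.PGroups.CentralizerIndex.Sec H K := by
  refine ⟨hle, ?_, hsq⟩
  intro a ha b hb
  have h1 := hsq _ (H.mul_mem ha hb)
  have h2 := hn _ (H.inv_mem hb) _ (hsq _ (H.inv_mem ha))
  have h3 := hsq _ (H.inv_mem hb)
  have h4 : a * b * a⁻¹ * b⁻¹ = (a * b * (a * b)) * (b⁻¹ * (a⁻¹ * a⁻¹) * b⁻¹⁻¹) * (b⁻¹ * b⁻¹) := by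
    group
  rw [h4]
  exact K.mul_mem (K.mul_mem h1 h2) h3

end sec

end Cfsg.Agent.Lib.SecRank4.Sect
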