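import Cfsg.Agent.Lib.SecRank4.Sect

/-!
# Order-three automorphisms and transvections on an elementary abelian group of order 16
-/

set_option autoImplicit false

namespace Cfsg.Agent.Lib.SecRank4.SixMod

open Cfsg.Agent.Lib.SecRank4.Sect

/-- Counting fixed points of a map with `f³ = id`. -/
lemma card_modEq_fixed3 {α : Type*} [Finite α] (f : α → α) (h : ∀ x, f (f (f x)) = x) :
    Nat.card α ≡ Nat.card {x // f x = x} [MOD 3] := by
  classical
  haveI := Fintype.ofFinite α
  let F : Function.End α := f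
  have hf : F ^ 3 ^ 1 = 1 := by
    funext x
    exact h x
  haveI : Fact (Nat.Prime 3) := ⟨by norm_num⟩
  have := Equiv.Perm.card_fixedPoints_modEq (α := α) (f := F) (p := 3) (n := 1) hf
  rw [Nat.card_eq_fintype_card]
  have h2 : Nat.card {x // f x = x} = Fintype.card (Function.fixedPoints f) := by
    rw [Nat.card_eq_fintype_card]
    exact Fintype.card_congr (Equiv.refl _)
  rw [h2]
  exact this

variable {V : Type*} [Group V]

/-- The norm of an order-three automorphism. -/
def nm (τ : MulAut V) (v : V) : V := v * τ v * τ (τ v)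

section comm

variable (hV : ∀ v : V, v * v = 1)

include hV in
lemma nm_fix (τ : MulAut V) (h3 : ∀ v, τ (τ (τ v)) = v) (v : V) : τ (nm τ v) = nm τ v := by
  have hc := comm_of_sq hV
  unfold nm
  rw [map_mul, map_mul, h3]
  calc τ v * τ (τ v) * v = v * (τ v * τ (τ v)) := hc _ _
    _ = _ := (mul_assoc _ _ _).symm

include hV in
lemma nm_mul (τ : MulAut V) (a b : V) : nm τ (a * b) = nm τ a * nm τ b := by
  have hc := comm_of_sq hV
  haveI : Std.Commutative (α := V) (· * ·) := ⟨hc⟩
  haveI : Std.Associative (α := V) (· * ·) := ⟨mul_assoc⟩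
  unfold nm
  simp only [map_mul]
  ac_rfl

include hV in
lemma nm_of_fix {τ : MulAut V} {v : V} (h : τ v = v) : nm τ v = v := by
  unfold nm
  rw [h, h, hV, one_mul]

include hV in
lemma nm_comm_apply {τ σ : MulAut V} (h : ∀ v, τ (σ v) = σ (τ v)) (v : V) :
    nm τ (σ v) = σ (nm τ v) := by
  unfold nm
  rw [map_mul, map_mul, h, h]

include hV in
/-- The identity behind the four-subgroups lemma. -/
lemma e9_identity (α β : MulAut V) (hαβ : ∀ v, α (β v) = β (α v)) (hα3 : ∀ v, α (α (α v)) = v)
    (v : V) (h1 : nm α (β v) = 1) (h2 : nm α (β (β v)) = 1) :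
    nm β v * nm (α * β) v * nm (α * α * β) v = v := by
  have hc := comm_of_sq hV
  haveI : Std.Commutative (α := V) (· * ·) := ⟨hc⟩
  haveI : Std.Associative (α := V) (· * ·) := ⟨mul_assoc⟩
  have e1 : nm (α * β) v = v * α (β v) * α (α (β (β v))) := by
    unfold nm
    simp only [MulAut.mul_apply]
    rw [← hαβ (β v)]
  have e2 : nm (α * α * β) v = v * α (α (β v)) * α (β (β v)) := by
    unfold nm
    simp only [MulAut.mul_apply]
    congr 1
    rw [← hαβ (α (β v)), ← hαβ (β v), hα3]
  rw [e1, e2]
  unfold nm at h1 h2 ⊢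
  have hv3 : v * v * v = v := by rw [hV, one_mul]
  calc v * β v * β (β v) * (v * α (β v) * α (α (β (β v)))) * (v * α (α (β v)) * α (β (β v)))
      = (v * v * v) * (β v * α (β v) * α (α (β v))) * (β (β v) * α (β (β v)) * α (α (β (β v)))) := by
        ac_rfl
    _ = v := by rw [hv3, h1, h2, mul_one, mul_one]

include hV in
/-- If four order-three subgroups act freely the group is trivial. -/
lemma trivial_of_free (α β : MulAut V) (hαβ : ∀ v, α (β v) = β (α v)) (hα3 : ∀ v, α (α (α v)) = v)
    (hβ3 : ∀ v, β (β (β v)) = v)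
    (h1 : ∀ v, α v = v → v = 1) (h2 : ∀ v, β v = v → v = 1)
    (h3 : ∀ v, (α * β) v = v → v = 1) (h4 : ∀ v, (α * α * β) v = v → v = 1) (v : V) : v = 1 := by
  have hNα : ∀ w, nm α w = 1 := fun w => h1 _ (nm_fix hV α hα3 w)
  have hid := e9_identity hV α β hαβ hα3 v (hNα _) (hNα _)
  have e3 : ∀ w, ((α * β) ((α * β) ((α * β) w))) = w := by
    intro w
    simp only [MulAut.mul_apply]
    have : α (β (α (β (α (β w))))) = α (α (α (β (β (β w))))) := by
      simp only [← hαβ]
    rw [this, hα3, hβ3]
  have e4 : ∀ w, ((α * α * β) ((α * α * β) ((α * α * β) w))) = w := by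
    intro w
    simp only [MulAut.mul_apply]
    have : α (α (β (α (α (β (α (α (β w)))))))) = α (α (α (α (α (α (β (β (β w)))))))) := by
      simp only [← hαβ]
    rw [this, hα3, hα3, hβ3]
  rw [h2 _ (nm_fix hV β hβ3 v), h3 _ (nm_fix hV _ e3 v), h4 _ (nm_fix hV _ e4 v)] at hid
  simpa using hid.symm

end comm

/-- Four distinct elements exhaust a subgroup of order four. -/
lemma four_cases (hV : ∀ v : V, v * v = 1) (C : Subgroup V) (hC : Nat.card C = 4) {u a x : V}
    (hu : u ∈ C) (ha : a ∈ C) (hx : x ∈ C) (hu1 : u ≠ 1) (ha1 : a ≠ 1) (hau : a ≠ u) :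
    x = 1 ∨ x = u ∨ x = a ∨ x = u * a := by
  classical
  by_contra hcon
  push Not at hcon
  obtain ⟨h1, h2, h3, h4⟩ := hcon
  have hc := comm_of_sq hV
  have hua1 : u * a ≠ 1 := by
    intro h
    apply hau
    have : u * (u * a) = u * 1 := by rw [h]
    rw [← mul_assoc, hV, one_mul, mul_one] at this
    exact this
  have hua2 : u * a ≠ u := by
    intro h
    exact ha1 (by simpa using h)
  have hua3 : u * a ≠ a := by
    intro h
    exact hu1 (by simpa using h)
  let g : Fin 5 → C := ![⟨1, C.one_mem⟩, ⟨u, hu⟩, ⟨a, ha⟩, ⟨u * a, C.mul_mem hu ha⟩, ⟨x, hx⟩]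
  have hinj : Function.Injective g := by
    intro i j hij
    have h5 : ((g i : C) : V) = g j := congrArg Subtype.val hij
    fin_cases i <;> fin_cases j <;> first | rfl | (exfalso; simp [g] at h5; first
      | exact hu1 h5 | exact hu1 h5.symm | exact ha1 h5 | exact ha1 h5.symm | exact hau h5
      | exact hau h5.symm | exact hua1 h5 | exact hua1 h5.symm | exact hua2 h5 | exact hua2 h5.symm
      | exact hua3 h5 | exact hua3 h5.symm | exact h1 h5 | exact h1 h5.symm | exact h2 h5
      | exact h2 h5.symm | exact h3 h5 | exact h3 h5.symm | exact h4 h5 | exact h4 h5.symm)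
  have hfin : Finite C := by
    by_contra hinf
    rw [not_finite_iff_infinite] at hinf
    rw [Nat.card_eq_zero_of_infinite] at hC
    omega
  have := Nat.card_le_card_of_injective g hinj
  simp only [Nat.card_eq_fintype_card (α := Fin 5), Fintype.card_fin] at this
  omega

section main

variable [Finite V] (hV : ∀ v : V, v * v = 1) (h16 : Nat.card V = 16)

include h16 in
/-- The fixed-point count of an order-three automorphism. -/
lemma card_fix3 (τ : MulAut V) (h3 : ∀ v, τ (τ (τ v)) = v) :
    Nat.card (fixS τ) = 1 ∨ Nat.card (fixS τ) = 4 ∨ Nat.card (fixS τ) = 16 := by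
  have h1 := card_modEq_fixed3 (fun x => τ x) h3
  have h2 : Nat.card {x // τ x = x} = Nat.card (fixS τ) := rfl
  rw [h2, h16] at h1
  have h4 : Nat.card (fixS τ) ∣ 16 := by rw [← h16]; exact Subgroup.card_subgroup_dvd_card _
  have hle : Nat.card (fixS τ) ≤ 16 := Nat.le_of_dvd (by norm_num) h4
  have hmod : 16 % 3 = Nat.card (fixS τ) % 3 := h1
  generalize Nat.card (fixS τ) = n at *
  interval_cases n <;> omega

include h16 in
lemma eq_one_of_card_fix {τ : MulAut V} (h : Nat.card (fixS τ) = 16) : τ = 1 := by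
  have htop : fixS τ = ⊤ := Subgroup.eq_top_of_card_eq _ (by rw [h, h16])
  ext v
  have : v ∈ fixS τ := htop ▸ Subgroup.mem_top v
  exact this

include hV h16 in
/-- Two commuting order-three automorphisms with four fixed points have no common fixed points. -/
lemma inter_trivial (α β : MulAut V) (hαβ : ∀ v, α (β v) = β (α v)) (hα3 : ∀ v, α (α (α v)) = v)
    (hβ3 : ∀ v, β (β (β v)) = v) (hα4 : Nat.card (fixS α) = 4) (hβ4 : Nat.card (fixS β) = 4)
    (hγ₁ : α * β ≠ 1) (hγ₂ : α * α * β ≠ 1) {c : V} (hcα : α c = c) (hcβ : β c = c) : c = 1 := by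
  classical
  by_contra hc1
  have hc := comm_of_sq hV
  haveI : Std.Commutative (α := V) (· * ·) := ⟨hc⟩
  haveI : Std.Associative (α := V) (· * ·) := ⟨mul_assoc⟩
  -- the fixed points agree
  have hle : fixS α ≤ fixS β := by
    intro a ha
    change α a = a at ha
    change β a = a
    by_cases ha1 : a = 1
    · rw [ha1, map_one]
    by_cases hac : a = c
    · rw [hac]; exact hcβ
    have hb : β a ∈ fixS α := by
      change α (β a) = β a
      rw [hαβ, ha]
    rcases four_cases hV (fixS α) hα4 (u := c) (a := a) (x := β a) hcα ha hb hc1 ha1 hac with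
      h | h | h | h
    · exact absurd (by simpa using h) ha1
    · exact absurd (β.injective (h.trans hcβ.symm)) hac
    · exact h
    · exfalso
      have e1 : β (β a) = a := by
        rw [h, map_mul, hcβ, h, ← mul_assoc, hV, one_mul]
      have e2 := hβ3 a
      rw [e1, h] at e2
      apply hc1
      have : c * a * a = a * a := by rw [e2]
      rwa [mul_assoc, hV, mul_one] at this
  have heq : fixS α = fixS β := Subgroup.eq_of_le_of_card_ge hle (by rw [hα4, hβ4])
  -- a vector in the kernel of the norm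
  have hex : ∃ v, α v ≠ v := by
    by_contra hall
    push Not at hall
    have : fixS α = ⊤ := by
      ext v
      simp only [Subgroup.mem_top, iff_true]
      exact hall v
    rw [this, Subgroup.card_top, h16] at hα4
    omega
  obtain ⟨v₀, hv₀⟩ := hex
  set v := v₀ * nm α v₀ with hv
  have hnm0 : nm α v = 1 := by
    rw [hv, nm_mul hV, nm_of_fix hV (nm_fix hV α hα3 v₀), hV]
  have hv1 : v ≠ 1 := by
    intro h
    apply hv₀
    have h1 : v₀ = nm α v₀ := by
      have : v₀ * (v₀ * nm α v₀) = v₀ * 1 := by rw [← hv, h]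
      rw [← mul_assoc, hV, one_mul, mul_one] at this
      exact this.symm
    rw [h1]
    exact nm_fix hV α hα3 v₀
  have hnmβ : ∀ w, nm α w = 1 → nm α (β w) = 1 := by
    intro w hw
    rw [nm_comm_apply hV hαβ, hw, map_one]
  have hnmα : ∀ w, nm α w = 1 → nm α (α w) = 1 := by
    intro w hw
    rw [nm_comm_apply hV (fun _ => rfl), hw, map_one]
  have hid := e9_identity hV α β hαβ hα3 v (hnmβ _ hnm0) (hnmβ _ (hnmβ _ hnm0))
  -- elements fixed by `α` with trivial norm are trivial
  have hfixnm : ∀ w, α w = w → nm α w = 1 → w = 1 := by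
    intro w h1 h2
    rwa [nm_of_fix hV h1] at h2
  have e3 : ∀ w, ((α * β) ((α * β) ((α * β) w))) = w := by
    intro w
    simp only [MulAut.mul_apply]
    have : α (β (α (β (α (β w))))) = α (α (α (β (β (β w))))) := by
      simp only [← hαβ]
    rw [this, hα3, hβ3]
  have e4 : ∀ w, ((α * α * β) ((α * α * β) ((α * α * β) w))) = w := by
    intro w
    simp only [MulAut.mul_apply]
    have : α (α (β (α (α (β (α (α (β w)))))))) = α (α (α (α (α (α (β (β (β w)))))))) := by
      simp only [← hαβ]
    rw [this, hα3, hα3, hβ3]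
  -- the norm for `β` vanishes
  have hNβ : nm β v = 1 := by
    apply hfixnm
    · have : nm β v ∈ fixS β := nm_fix hV β hβ3 v
      rw [← heq] at this
      exact this
    · rw [show nm β v = v * β v * β (β v) from rfl, nm_mul hV, nm_mul hV, hnm0, hnmβ _ hnm0,
        hnmβ _ (hnmβ _ hnm0), one_mul, one_mul]
  -- the fixed points of `γ`
  have hkey : ∀ γ : MulAut V, (∀ w, γ (γ (γ w)) = w) → (∀ w, nm α w = 1 → nm α (γ w) = 1) →
      (∀ a, α a = a → γ a = a) → γ ≠ 1 → nm γ v = 1 := by
    intro γ hγ3 hγ hγfix hγ1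
    by_contra hne
    set w := nm γ v with hw
    have hwfix : γ w = w := nm_fix hV γ hγ3 v
    have hwα : α w ≠ w := by
      intro h
      apply hne
      apply hfixnm _ h
      rw [hw, show nm γ v = v * γ v * γ (γ v) from rfl, nm_mul hV, nm_mul hV, hnm0, hγ _ hnm0,
        hγ _ (hγ _ hnm0), one_mul, one_mul]
    have hlt : fixS α < fixS γ := by
      refine lt_of_le_of_ne (fun a ha => hγfix a ha) ?_
      intro h
      apply hwα
      have : w ∈ fixS γ := hwfix
      rw [← h] at this
      exact this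
    have hcard : Nat.card (fixS α) < Nat.card (fixS γ) := by
      refine lt_of_le_of_ne (Subgroup.card_le_of_le hlt.le) ?_
      intro he
      exact hlt.ne (Subgroup.eq_of_le_of_card_ge hlt.le he.ge)
    rcases card_fix3 h16 γ hγ3 with h | h | h
    · omega
    · omega
    · exact hγ1 (eq_one_of_card_fix h16 h)
  have hfixβ : ∀ a, α a = a → β a = a := fun a ha => hle ha
  have h1 : nm (α * β) v = 1 := by
    apply hkey _ e3 _ _ hγ₁
    · intro w hw
      simp only [MulAut.mul_apply]
      exact hnmα _ (hnmβ _ hw)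
    · intro a ha
      simp only [MulAut.mul_apply]
      rw [hfixβ a ha, ha]
  have h2 : nm (α * α * β) v = 1 := by
    apply hkey _ e4 _ _ hγ₂
    · intro w hw
      simp only [MulAut.mul_apply]
      exact hnmα _ (hnmα _ (hnmβ _ hw))
    · intro a ha
      simp only [MulAut.mul_apply]
      rw [hfixβ a ha, ha, ha]
  rw [hNβ, h1, h2, one_mul, one_mul] at hid
  exact hv1 hid.symm

include h16 in
/-- The decomposition of `V`. -/
lemma exists_decomp (α β : MulAut V) (hα4 : Nat.card (fixS α) = 4) (hβ4 : Nat.card (fixS β) = 4)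
    (hinter : ∀ c, α c = c → β c = c → c = 1) (hc : ∀ x y : V, x * y = y * x) (v : V) :
    ∃ u w, α u = u ∧ β w = w ∧ v = u * w := by
  let f : fixS α × fixS β → V := fun p => (p.1 : V) * p.2
  have hinj : Function.Injective f := by
    rintro ⟨⟨a, ha⟩, ⟨b, hb⟩⟩ ⟨⟨a', ha'⟩, ⟨b', hb'⟩⟩ h
    have h1 : a * b = a' * b' := h
    have h2 : a'⁻¹ * a = b' * b⁻¹ := by
      rw [inv_mul_eq_iff_eq_mul, ← mul_assoc, ← h1]
      group
    have h3 : α (a'⁻¹ * a) = a'⁻¹ * a := (fixS α).mul_mem ((fixS α).inv_mem ha') ha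
    have h4 : β (a'⁻¹ * a) = a'⁻¹ * a := by
      rw [h2]
      exact (fixS β).mul_mem hb' ((fixS β).inv_mem hb)
    have h5 := hinter _ h3 h4
    have h6 : a = a' := by
      have := inv_mul_eq_one.mp h5
      exact this.symm
    subst h6
    have h7 : b = b' := mul_left_cancel h1
    subst h7
    rfl
  have hbij : Function.Bijective f := by
    apply (Function.Injective.bijective_of_nat_card_le hinj)
    rw [Nat.card_prod, hα4, hβ4, h16]
  obtain ⟨⟨u, w⟩, hp⟩ := hbij.2 v
  exact ⟨u, w, u.2, w.2, hp.symm⟩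

/-- The standing assumptions on a triple of automorphisms. -/
structure Tri (α β τ : MulAut V) : Prop where
  a3 : ∀ v, α (α (α v)) = v
  b3 : ∀ v, β (β (β v)) = v
  t2 : ∀ v, τ (τ v) = v
  ab : ∀ v, α (β v) = β (α v)
  ta : ∀ v, τ (α v) = α (α (τ v))
  tb : ∀ v, τ (β v) = β (τ v)
  cardα : Nat.card (fixS α) = 4
  cardβ : Nat.card (fixS β) = 4
  inter : ∀ c, α c = c → β c = c → c = 1
  dec : ∀ v, ∃ u w, α u = u ∧ β w = w ∧ v = u * w

include hV in
/-- The action on the two summands. -/
theorem transvection {α β τ : MulAut V} (h : Tri α β τ) :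
    ∃ z : V, z ≠ 1 ∧ τ z = z ∧ β z = z ∧ (∃ v, v * τ v = z) ∧ (∀ v, v * τ v = 1 ∨ v * τ v = z) ∧
      (∀ u, α u = u → τ u = u) ∧ (∀ w, β w = w → τ w = w → w = 1 ∨ w = z) := by
  classical
  have hc := comm_of_sq hV
  -- the trivial summand
  have htriv : ∀ u, α u = u → τ u = u := by
    intro u hu
    by_cases hu1 : u = 1
    · rw [hu1, map_one]
    have hm : ∀ {a}, α a = a → α (β a) = β a := fun {a} ha => by rw [h.ab, ha]
    have hnfix : β u ≠ u := fun hb => hu1 (h.inter u hu hb)
    have hb1 : β u ≠ 1 := by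
      intro hb
      apply hu1
      apply β.injective
      rw [hb, map_one]
    have hτm : τ u ∈ fixS α := by
      change α (τ u) = τ u
      have h1 := h.ta (τ u)
      rw [h.t2] at h1
      -- `τ (α (τ u)) = α (α u) = u`
      have h2 : τ (α (τ u)) = u := by rw [h1, hu, hu]
      have h3 := congrArg τ h2
      rwa [h.t2] at h3
    rcases four_cases hV (fixS α) h.cardα (u := u) (a := β u) (x := τ u) hu (hm hu) hτm hu1 hb1 hnfix
      with h1 | h1 | h1 | h1
    · exfalso
      apply hu1
      apply τ.injective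
      rw [h1, map_one]
    · exact h1
    · -- `τ u = β u`
      exfalso
      have h2 : τ (τ u) = β (β u) := by rw [h1, h.tb, h1]
      rw [h.t2] at h2
      apply hnfix
      have h3 := h.b3 u
      rw [← h2] at h3
      exact h3
    · -- `τ u = u * β u`
      exfalso
      have hN : nm β u = 1 := h.inter _ (by
        change α (u * β u * β (β u)) = _
        rw [map_mul, map_mul, hm hu, hm (hm hu), hu]
        rfl) (nm_fix hV β h.b3 u)
      have h2 : u * β u = β (β u) := by
        have h3 : u * β u * β (β u) = 1 := hN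
        have h4 : u * β u * β (β u) * β (β u) = β (β u) := by rw [h3, one_mul]
        rwa [mul_assoc, hV, mul_one] at h4
      rw [h2] at h1
      have h5 : τ (τ u) = τ (β (β u)) := by rw [h1]
      rw [h.t2, h.tb, h.tb, h1, h.b3] at h5
      exact hnfix h5.symm
  -- the nontrivial summand
  have hex : ∃ w, β w = w ∧ τ w ≠ w := by
    by_contra hall
    push Not at hall
    -- a nontrivial element
    have hne : ∃ w, β w = w ∧ w ≠ 1 := by
      by_contra hne
      push Not at hne
      have : Nat.card (fixS β) = 1 := by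
        rw [Subgroup.card_eq_one]
        ext w
        rw [Subgroup.mem_bot]
        exact ⟨fun hw => hne w hw, fun hw => by rw [hw]; exact map_one β⟩
      rw [h.cardβ] at this
      omega
    obtain ⟨w, hw, hw1⟩ := hne
    have hαw : β (α w) = α w := by rw [← h.ab, hw]
    have h1 := hall _ hαw
    rw [h.ta, hall w hw] at h1
    apply hw1
    apply h.inter w _ hw
    exact α.injective h1
  obtain ⟨w₀, hw₀, hτw₀⟩ := hex
  set z := w₀ * τ w₀ with hz
  have hz1 : z ≠ 1 := by
    intro h1
    apply hτw₀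
    have h2 : w₀ * (w₀ * τ w₀) = w₀ * 1 := by rw [← hz, h1]
    rw [← mul_assoc, hV, one_mul, mul_one] at h2
    exact h2
  have hτz : τ z = z := by
    rw [hz, map_mul, h.t2]
    exact hc _ _
  have hβτ : ∀ {w}, β w = w → β (τ w) = τ w := fun {w} hw => by rw [← h.tb, hw]
  have hβz : β z = z := by
    rw [hz, map_mul, hw₀, hβτ hw₀]
  have hw₀1 : w₀ ≠ 1 := by
    intro h1
    apply hτw₀
    rw [h1, map_one]
  have hzw : z ≠ w₀ := by
    intro h1
    apply hτw₀
    rw [← h1, hτz]
  have hcases : ∀ w, β w = w → w = 1 ∨ w = z ∨ w = w₀ ∨ w = z * w₀ := fun w hw =>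
    four_cases hV (fixS β) h.cardβ hβz hw₀ hw hz1 hw₀1 hzw.symm
  have hτw₀' : τ w₀ = z * w₀ := by
    rw [hz, hc w₀, mul_assoc, hV, mul_one]
  have hvalue : ∀ w, β w = w → w * τ w = 1 ∨ w * τ w = z := by
    intro w hw
    rcases hcases w hw with rfl | rfl | rfl | rfl
    · left; rw [map_one, mul_one]
    · left; rw [hτz, hV]
    · right; rfl
    · right
      rw [map_mul, hτz, hτw₀', ← mul_assoc z z, hV, one_mul, mul_assoc, hV, mul_one]
  refine ⟨z, hz1, hτz, hβz, ⟨w₀, rfl⟩, ?_, htriv, ?_⟩
  · intro v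
    obtain ⟨u, w, hu, hw, rfl⟩ := h.dec v
    have e : u * w * τ (u * w) = w * τ w := by
      rw [map_mul, htriv u hu, hc u w, mul_assoc w u, ← mul_assoc u u, hV, one_mul]
    rw [e]
    exact hvalue w hw
  · intro w hw hτw
    rcases hcases w hw with h1 | h1 | h1 | h1
    · exact Or.inl h1
    · exact Or.inr h1
    · exact absurd (h1 ▸ hτw) hτw₀
    · exfalso
      rw [h1, map_mul, hτz, hτw₀'] at hτw
      have := mul_left_cancel hτw
      apply hτw₀
      rw [hτw₀', this]

end main

end Cfsg.Agent.Lib.SecRank4.SixMod
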