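import Cfsg.Agent.Lib.SecRank4.Main
import Cfsg.Agent.Lib.SecRank4.SixMod

/-!
# `S₆` does not act on the Frattini quotient of `O₂(X)` when `X` has sectional 2-rank at most four
-/

set_option autoImplicit false

namespace Cfsg.Agent.Lib.SecRank4.Six

open Cfsg.Agent.Lib.SecRank4.Sect Cfsg.Agent.Lib.SecRank4.Layers Cfsg.Agent.Lib.SecRank4.Step
open Cfsg.Agent.Lib.SecRank4.SixMod
open Cfsg.Agent.Lib.PGroups.CentralizerIndex (Sec card_le_of_sectional)

/-- Elementary abelian sections from commuting generators. -/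
lemma sec_of_gens {X : Type*} [Group X] {S : Set X} {K : Subgroup X} (hKS : K ≤ Subgroup.closure S)
    (hn : ∀ s ∈ S, ∀ c ∈ K, s * c * s⁻¹ ∈ K ∧ s⁻¹ * c * s ∈ K)
    (hc : ∀ s ∈ S, ∀ s' ∈ S, s * s' * s⁻¹ * s'⁻¹ ∈ K) (hq : ∀ s ∈ S, s * s ∈ K) :
    Sec (Subgroup.closure S) K := by
  have hn' : ∀ h ∈ Subgroup.closure S, ∀ c ∈ K, h * c * h⁻¹ ∈ K ∧ h⁻¹ * c * h ∈ K := by
    intro h hh
    induction hh using Subgroup.closure_induction with
    | mem s hs => exact hn s hs
    | one => intro c hc; simpa using hc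
    | mul a b _ _ ha hb =>
      intro c hc
      constructor
      · have := (ha _ (hb c hc).1).1
        have e : a * b * c * (a * b)⁻¹ = a * (b * c * b⁻¹) * a⁻¹ := by group
        rwa [e]
      · have := (hb _ (ha c hc).2).2
        have e : (a * b)⁻¹ * c * (a * b) = b⁻¹ * (a⁻¹ * c * a) * b := by group
        rwa [e]
    | inv a _ ha =>
      intro c hc
      have := ha c hc
      simpa using this.symm
  have hc1 : ∀ b ∈ S, ∀ a ∈ Subgroup.closure S, a * b * a⁻¹ * b⁻¹ ∈ K := by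
    intro b hb a ha
    induction ha using Subgroup.closure_induction with
    | mem s hs => exact hc s hs b hb
    | one => simp [K.one_mem]
    | mul x y hx hy h1 h2 =>
      have e : x * y * b * (x * y)⁻¹ * b⁻¹ = x * (y * b * y⁻¹ * b⁻¹) * x⁻¹ * (x * b * x⁻¹ * b⁻¹) := by
        group
      rw [e]
      exact K.mul_mem (hn' x hx _ h2).1 h1
    | inv x hx h1 =>
      have e : x⁻¹ * b * x⁻¹⁻¹ * b⁻¹ = x⁻¹ * (x * b * x⁻¹ * b⁻¹)⁻¹ * x := by group
      rw [e]
      exact (hn' x hx _ (K.inv_mem h1)).2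
  have hc2 : ∀ b ∈ Subgroup.closure S, ∀ a ∈ Subgroup.closure S, a * b * a⁻¹ * b⁻¹ ∈ K := by
    intro b hb
    induction hb using Subgroup.closure_induction with
    | mem s hs => exact hc1 s hs
    | one => intro a _; simp [K.one_mem]
    | mul x y hx hy h1 h2 =>
      intro a ha
      have e : a * (x * y) * a⁻¹ * (x * y)⁻¹ = (a * x * a⁻¹ * x⁻¹) * (x * (a * y * a⁻¹ * y⁻¹) * x⁻¹) := by
        group
      rw [e]
      exact K.mul_mem (h1 a ha) (hn' x hx _ (h2 a ha)).1
    | inv x hx h1 =>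
      intro a ha
      have e : a * x⁻¹ * a⁻¹ * x⁻¹⁻¹ = x⁻¹ * (a * x * a⁻¹ * x⁻¹)⁻¹ * x := by group
      rw [e]
      exact (hn' x hx _ (K.inv_mem (h1 a ha))).2
  have hq' : ∀ a ∈ Subgroup.closure S, a * a ∈ K := by
    intro a ha
    induction ha using Subgroup.closure_induction with
    | mem s hs => exact hq s hs
    | one => simp [K.one_mem]
    | mul x y hx hy h1 h2 =>
      have e : x * y * (x * y) = (x * x) * (x⁻¹ * y * x⁻¹⁻¹ * y⁻¹) * (y * y) := by group
      rw [e]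
      exact K.mul_mem (K.mul_mem h1 (hc2 y hy _ (Subgroup.inv_mem _ hx))) h2
    | inv x hx h1 =>
      have e : x⁻¹ * x⁻¹ = (x * x)⁻¹ := by group
      rw [e]
      exact K.inv_mem h1
  exact sec_of_sq hKS hq' (fun h hh c hc => (hn' h hh c hc).1)

/-- The relations used between a pair of commuting involutions and a pair of commuting elements of
order three. -/
structure Pair {S : Type*} [Group S] (t t' a b : S) : Prop where
  tt : t * t = 1
  tt' : t' * t' = 1
  tc : t * t' = t' * t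
  a3 : a * a * a = 1
  b3 : b * b * b = 1
  ab : a * b = b * a
  ta : t * a = a * a * t
  tb : t * b = b * t
  tb' : t' * b = b * b * t'
  ta' : t' * a = a * t'
  n1 : a * b ≠ 1
  n2 : a * a * b ≠ 1

section tri

variable {S V : Type*} [Group S] [Group V] [Finite V]

lemma rho_mul (ρ : S →* MulAut V) (x y : S) (v : V) : ρ x (ρ y v) = ρ (x * y) v := by
  rw [map_mul]; rfl

lemma rho_one' (ρ : S →* MulAut V) (v : V) : ρ 1 v = v := by
  rw [map_one]; rfl

lemma tri_of_pair (hV : ∀ v : V, v * v = 1) (h16 : Nat.card V = 16) (ρ : S →* MulAut V)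
    (hρ : Function.Injective ρ) {t t' a b : S} (hp : Pair t t' a b)
    (ha4 : Nat.card (fixS (ρ a)) = 4) (hb4 : Nat.card (fixS (ρ b)) = 4) :
    Tri (ρ a) (ρ b) (ρ t) ∧ Tri (ρ b) (ρ a) (ρ t') := by
  have hcomm := comm_of_sq hV
  have ha3 : ∀ v, ρ a (ρ a (ρ a v)) = v := fun v => by
    rw [rho_mul, rho_mul, hp.a3, rho_one']
  have hb3 : ∀ v, ρ b (ρ b (ρ b v)) = v := fun v => by
    rw [rho_mul, rho_mul, hp.b3, rho_one']
  have hab : ∀ v, ρ a (ρ b v) = ρ b (ρ a v) := fun v => by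
    rw [rho_mul, rho_mul, hp.ab]
  have hinter : ∀ c, ρ a c = c → ρ b c = c → c = 1 := by
    intro c h1 h2
    refine inter_trivial hV h16 (ρ a) (ρ b) hab ha3 hb3 ha4 hb4 ?_ ?_ h1 h2
    · rw [← map_mul]
      exact fun h => hp.n1 (hρ (by rw [h, map_one]))
    · rw [← map_mul, ← map_mul]
      exact fun h => hp.n2 (hρ (by rw [h, map_one]))
  refine ⟨⟨ha3, hb3, ?_, hab, ?_, ?_, ha4, hb4, hinter,
      exists_decomp h16 _ _ ha4 hb4 hinter hcomm⟩,
    ⟨hb3, ha3, ?_, fun v => (hab v).symm, ?_, ?_, hb4, ha4, fun c h1 h2 => hinter c h2 h1,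
      exists_decomp h16 _ _ hb4 ha4 (fun c h1 h2 => hinter c h2 h1) hcomm⟩⟩
  · exact fun v => by rw [rho_mul, hp.tt, rho_one']
  · exact fun v => by rw [rho_mul, hp.ta, rho_mul, rho_mul]
  · exact fun v => by rw [rho_mul, hp.tb, rho_mul]
  · exact fun v => by rw [rho_mul, hp.tt', rho_one']
  · exact fun v => by rw [rho_mul, hp.tb', rho_mul, rho_mul]
  · exact fun v => by rw [rho_mul, hp.ta', rho_mul]

/-- The values of the commutator map of a transvection. -/
structure Good (τ : MulAut V) (z : V) : Prop where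
  ne : z ≠ 1
  fix : τ z = z
  att : ∃ v, v * τ v = z
  val : ∀ v, v * τ v = 1 ∨ v * τ v = z

lemma Good.eq {τ : MulAut V} {z z' : V} (h : Good τ z) (h' : Good τ z') : z = z' := by
  obtain ⟨v, hv⟩ := h.att
  rcases h'.val v with h1 | h1
  · exact absurd (hv.symm.trans h1) h.ne
  · exact hv.symm.trans h1

lemma Good.fix_of_comm {τ σ : MulAut V} {z : V} (h : Good τ z) (hc : ∀ v, σ (τ v) = τ (σ v)) :
    σ z = z := by
  obtain ⟨v, hv⟩ := h.att
  have h1 : σ z = σ v * τ (σ v) := by rw [← hv, map_mul, hc]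
  rcases h.val (σ v) with h2 | h2
  · exfalso
    apply h.ne
    apply σ.injective
    rw [h1, h2, map_one]
  · rw [h1, h2]

/-- The common fixed points of two transvections in a pair. -/
lemma inter_of_tri (hV : ∀ v : V, v * v = 1) {α β τ τ' : MulAut V} (T : Tri α β τ)
    {z z' : V} (hz : ∀ w, β w = w → τ w = w → w = 1 ∨ w = z)
    (hz' : ∀ u, α u = u → τ' u = u → u = 1 ∨ u = z')
    (ht : ∀ u, α u = u → τ u = u) (ht' : ∀ w, β w = w → τ' w = w) {v : V} (h1 : τ v = v)
    (h2 : τ' v = v) : v = 1 ∨ v = z ∨ v = z' ∨ v = z' * z := by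
  obtain ⟨u, w, hu, hw, rfl⟩ := T.dec v
  have e1 : τ w = w := by
    rw [map_mul, ht u hu] at h1
    exact mul_left_cancel h1
  have e2 : τ' u = u := by
    rw [map_mul, ht' w hw] at h2
    exact mul_right_cancel h2
  rcases hz w hw e1 with rfl | rfl <;> rcases hz' u hu e2 with rfl | rfl
  · left; simp
  · right; right; left; simp
  · right; left; simp
  · right; right; right; rfl

end tri

section grp

variable {X : Type*} [Group X] [Finite X] {P : Subgroup X} [hPn : P.Normal]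

lemma sq_fix {x : X} (hx : x * x ∈ P) :
    actV P x (scMk (sqs P) (x * x) hx) = scMk (sqs P) (x * x) hx := by
  rw [scAct_mk]
  apply scMk_congr
  group

lemma inv_act {x : X} (ht2 : ∀ v, actV P x (actV P x v) = v) (v : VV P) :
    actV P x⁻¹ v = actV P x v := by
  apply (actV P x).injective
  rw [ht2]
  have h : (actV P x) * (actV P x⁻¹) = 1 := by rw [← map_mul, mul_inv_cancel, map_one]
  exact congrArg (fun σ : MulAut (VV P) => σ v) h

/-- The class of the square of a lift of an involution. -/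
lemma sq_value {x y : X} {z : VV P} (hxx : x * x ∈ P) (hcomm : x⁻¹ * (y * x * y⁻¹) ∈ P)
    (ht2 : ∀ v, actV P x (actV P x v) = v) (hb3 : ∀ v, actV P y (actV P y (actV P y v)) = v)
    (hval : ∀ v, v * actV P x v = 1 ∨ v * actV P x v = z) (hβz : actV P y z = z) (hz1 : z ≠ 1)
    (hfix : ∀ w, actV P y w = w → actV P x w = w → w = 1 ∨ w = z) :
    scMk (sqs P) (x * x) hxx = 1 ∨ scMk (sqs P) (x * x) hxx = z := by
  set q := scMk (sqs P) (x * x) hxx with hq
  set p := x⁻¹ * (y * x * y⁻¹) with hp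
  have hc := comm_of_sq (V_sq (P := P))
  have hyq : actV P y q = q * (actV P x⁻¹ (scMk (sqs P) p hcomm) * scMk (sqs P) p hcomm) := by
    rw [hq, scAct_mk, scAct_mk, scMk_mul, scMk_mul]
    apply scMk_congr
    have h1 : y * x * y⁻¹ = x * p := by rw [hp]; group
    have h2 : y * (x * x) * y⁻¹ = (y * x * y⁻¹) * (y * x * y⁻¹) := by group
    rw [h2, h1]
    group
  rw [inv_act ht2, hc (actV P x (scMk (sqs P) p hcomm)) (scMk (sqs P) p hcomm)] at hyq
  have hq1 : actV P y q = q := by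
    rcases hval (scMk (sqs P) p hcomm) with h | h
    · rw [h, mul_one] at hyq
      exact hyq
    · exfalso
      rw [h] at hyq
      have e1 : actV P y (actV P y q) = q := by
        rw [hyq, map_mul, hβz, hyq, mul_assoc, V_sq, mul_one]
      have e2 := hb3 q
      rw [e1, hyq] at e2
      apply hz1
      exact mul_left_cancel (a := q) (by rw [e2, mul_one])
  exact hfix q hq1 (sq_fix hxx)

/-- The class of the commutator of two lifts. -/
lemma comm_fix {x y : X} (hxx : x * x ∈ P) (hc : x * y * x⁻¹ * y⁻¹ ∈ P)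
    (h1 : actV P y (scMk (sqs P) (x * x) hxx) = scMk (sqs P) (x * x) hxx) :
    actV P x (scMk (sqs P) _ hc) = scMk (sqs P) _ hc := by
  set c := x * y * x⁻¹ * y⁻¹ with hcdef
  have h2 : actV P x (scMk (sqs P) c hc) * scMk (sqs P) c hc =
      scMk (sqs P) (x * x) hxx * (actV P y (scMk (sqs P) (x * x) hxx))⁻¹ := by
    rw [scAct_mk, scAct_mk, scMk_inv, scMk_mul, scMk_mul]
    apply scMk_congr
    rw [hcdef]
    group
  rw [h1, mul_inv_cancel] at h2
  have h3 := V_sq (P := P) (scMk (sqs P) c hc)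
  exact mul_right_cancel (h2.trans h3.symm)

/-- The action of an abstract group on the Frattini quotient. -/
noncomputable def rhoG {S : Type*} [Group S] (ι : S →* X ⧸ P) : S →* MulAut (VV P) :=
  (QuotientGroup.lift P (actV P) (fun _ hy => actV_of_mem hy)).comp ι

lemma rhoG_apply {S : Type*} [Group S] (ι : S →* X ⧸ P) {g : S} {x : X} (h : (x : X ⧸ P) = ι g) :
    rhoG ι g = actV P x := by
  unfold rhoG
  rw [MonoidHom.comp_apply, ← h]
  rfl

lemma rhoG_inj {S : Type*} [Group S] (ι : S →* X ⧸ P) (hker : ∀ x, actV P x = 1 → x ∈ P)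
    (hι : Function.Injective ι) : Function.Injective (rhoG ι) := by
  rw [injective_iff_map_eq_one]
  intro g hg
  obtain ⟨x, hx⟩ := QuotientGroup.mk_surjective (ι g)
  rw [rhoG_apply ι hx] at hg
  have h1 := hker x hg
  have h2 : (x : X ⧸ P) = 1 := (QuotientGroup.eq_one_iff x).mpr h1
  rw [h2] at hx
  exact hι (by rw [← hx, map_one])

/-- The section of order 32. -/
theorem false_of_data {S : Type*} [Group S] (ι : S →* X ⧸ P)
    (hker : ∀ x, actV P x = 1 → x ∈ P) (hι : Function.Injective ι)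
    (hsec : Cfsg.SectionalPRankLE 2 4 X) (h16 : Nat.card (VV P) = 16)
    (t a b : Fin 3 → S)
    (hp₀ : Pair (t 0) (t 1) (a 0) (b 0)) (hp₁ : Pair (t 0) (t 2) (a 1) (b 1))
    (hp₂ : Pair (t 1) (t 2) (a 2) (b 2))
    (hcard : ∀ i, Nat.card (fixS (rhoG ι (a i))) = 4 ∧ Nat.card (fixS (rhoG ι (b i))) = 4)
    (hinj : Function.Injective (fun s : Bool × Bool × Bool =>
      (if s.1 then t 0 else 1) * (if s.2.1 then t 1 else 1) * (if s.2.2 then t 2 else 1))) :
    False := by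
  classical
  have hV := V_sq (P := P)
  have hcV := comm_of_sq hV
  set ρ := rhoG ι with hρdef
  have hρ : Function.Injective ρ := rhoG_inj ι hker hι
  obtain ⟨T00, T01⟩ := tri_of_pair hV h16 ρ hρ hp₀ (hcard 0).1 (hcard 0).2
  obtain ⟨T10, T12⟩ := tri_of_pair hV h16 ρ hρ hp₁ (hcard 1).1 (hcard 1).2
  obtain ⟨T21, T22⟩ := tri_of_pair hV h16 ρ hρ hp₂ (hcard 2).1 (hcard 2).2
  obtain ⟨z₀, a1, a2, a3, a4, a5, a6, a7⟩ := transvection hV T00
  obtain ⟨z₀', b1, b2, b3, b4, b5, b6, b7⟩ := transvection hV T10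
  obtain ⟨z₁, c1, c2, c3, c4, c5, c6, c7⟩ := transvection hV T01
  obtain ⟨z₁', d1, d2, d3, d4, d5, d6, d7⟩ := transvection hV T21
  obtain ⟨z₂, e1, e2, e3, e4, e5, e6, e7⟩ := transvection hV T12
  obtain ⟨z₂', f1, f2, f3, f4, f5, f6, f7⟩ := transvection hV T22
  have G0 : Good (ρ (t 0)) z₀ := ⟨a1, a2, a4, a5⟩
  have G0' : Good (ρ (t 0)) z₀' := ⟨b1, b2, b4, b5⟩
  have G1 : Good (ρ (t 1)) z₁ := ⟨c1, c2, c4, c5⟩
  have G1' : Good (ρ (t 1)) z₁' := ⟨d1, d2, d4, d5⟩
  have G2 : Good (ρ (t 2)) z₂ := ⟨e1, e2, e4, e5⟩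
  have G2' : Good (ρ (t 2)) z₂' := ⟨f1, f2, f4, f5⟩
  obtain rfl : z₀' = z₀ := G0'.eq G0
  obtain rfl : z₁' = z₁ := G1'.eq G1
  obtain rfl : z₂' = z₂ := G2'.eq G2
  have H01 : ∀ {v}, ρ (t 0) v = v → ρ (t 1) v = v → v = 1 ∨ v = z₀' ∨ v = z₁' ∨ v = z₁' * z₀' :=
    fun {v} h1 h2 => inter_of_tri hV T00 a7 c7 a6 c6 h1 h2
  have H02 : ∀ {v}, ρ (t 0) v = v → ρ (t 2) v = v → v = 1 ∨ v = z₀' ∨ v = z₂' ∨ v = z₂' * z₀' :=
    fun {v} h1 h2 => inter_of_tri hV T10 b7 e7 b6 e6 h1 h2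
  have H12 : ∀ {v}, ρ (t 1) v = v → ρ (t 2) v = v → v = 1 ∨ v = z₁' ∨ v = z₂' ∨ v = z₂' * z₁' :=
    fun {v} h1 h2 => inter_of_tri hV T21 d7 f7 d6 f6 h1 h2
  have htc : ∀ i j, t i * t j = t j * t i := by
    intro i j
    fin_cases i <;> fin_cases j
    · rfl
    · exact hp₀.tc
    · exact hp₁.tc
    · exact hp₀.tc.symm
    · rfl
    · exact hp₂.tc
    · exact hp₁.tc.symm
    · exact hp₂.tc.symm
    · rfl
  have htt : ∀ i, t i * t i = 1 := by
    intro i
    fin_cases i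
    · exact hp₀.tt
    · exact hp₀.tt'
    · exact hp₁.tt'
  have hτc : ∀ i j v, ρ (t i) (ρ (t j) v) = ρ (t j) (ρ (t i) v) := fun i j v => by
    rw [rho_mul, rho_mul, htc]
  let z : Fin 3 → VV P := ![z₀', z₁', z₂']
  have G : ∀ i, Good (ρ (t i)) (z i) := by
    intro i
    fin_cases i
    · exact G0
    · exact G1
    · exact G2
  have hzfix : ∀ i j, ρ (t i) (z j) = z j := fun i j => (G j).fix_of_comm (hτc i j)
  -- the subgroup `W`
  set W : Subgroup (VV P) := fixS (ρ (t 0)) ⊓ fixS (ρ (t 1)) with hW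
  have hmemW : ∀ {v}, v ∈ W ↔ ρ (t 0) v = v ∧ ρ (t 1) v = v := Iff.rfl
  have hzW : ∀ j, z j ∈ W := fun j => ⟨hzfix 0 j, hzfix 1 j⟩
  have hz0W : z₀' ∈ W := hzW 0
  have hz1W : z₁' ∈ W := hzW 1
  have hz2W : z₂' ∈ W := hzW 2
  have hWfix : ∀ i, ∀ v ∈ W, ρ (t i) v = v := by
    intro i v hv
    rcases H01 hv.1 hv.2 with rfl | rfl | rfl | rfl
    · exact map_one _
    · exact hzfix i 0
    · exact hzfix i 1
    · rw [map_mul]
      have h1 := hzfix i 0
      have h2 := hzfix i 1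
      simp only [z, Matrix.cons_val_zero, Matrix.cons_val_one] at h1 h2
      rw [h1, h2]
  have hWcomm : ∀ i j, i ≠ j → ∀ v, ρ (t i) v = v → ρ (t j) v = v → v ∈ W := by
    intro i j hij v h1 h2
    have h02 : ρ (t 0) v = v → ρ (t 2) v = v → v ∈ W := by
      intro h3 h4
      rcases H02 h3 h4 with rfl | rfl | rfl | rfl
      · exact W.one_mem
      · exact hz0W
      · exact hz2W
      · exact W.mul_mem hz2W hz0W
    have h12 : ρ (t 1) v = v → ρ (t 2) v = v → v ∈ W := by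
      intro h3 h4
      rcases H12 h3 h4 with rfl | rfl | rfl | rfl
      · exact W.one_mem
      · exact hz1W
      · exact hz2W
      · exact W.mul_mem hz2W hz1W
    fin_cases i <;> fin_cases j
    · exact absurd rfl hij
    · exact ⟨h1, h2⟩
    · exact h02 h1 h2
    · exact ⟨h2, h1⟩
    · exact absurd rfl hij
    · exact h12 h1 h2
    · exact h02 h2 h1
    · exact h12 h2 h1
    · exact absurd rfl hij
  have hcardW : Nat.card W ≤ 4 := by
    let F : Finset (VV P) := {1, z₀', z₁', z₁' * z₀'}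
    have hF : F.card ≤ 4 := Finset.card_le_four
    let g : W → F := fun w => ⟨w, by
      have := H01 w.2.1 w.2.2
      simp only [F, Finset.mem_insert, Finset.mem_singleton]
      exact this⟩
    have hg : Function.Injective g := by
      intro u v huv
      exact Subtype.ext (congrArg (fun r : F => (r : VV P)) huv)
    have h1 := Nat.card_le_card_of_injective g hg
    rw [Nat.card_eq_fintype_card (α := F), Fintype.card_coe] at h1
    omega
  -- the lifts
  choose x hx using fun i => QuotientGroup.mk_surjective (ι (t i))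
  have hτx : ∀ i, ρ (t i) = actV P (x i) := fun i => rhoG_apply ι (hx i)
  have mem_of : ∀ u : X, (u : X ⧸ P) = 1 → u ∈ P := fun u h => (QuotientGroup.eq_one_iff u).mp h
  have hxx : ∀ i, x i * x i ∈ P := by
    intro i
    apply mem_of
    rw [QuotientGroup.mk_mul, hx, ← map_mul, htt, map_one]
  have ht2 : ∀ i v, ρ (t i) (ρ (t i) v) = v := fun i v => by
    rw [rho_mul, htt, rho_one']
  -- squares
  have hqgen : ∀ (i : Fin 3) (g : S), t i * g = g * t i → (∀ v, ρ g (ρ g (ρ g v)) = v) →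
      ρ g (z i) = z i → (∀ w, ρ g w = w → ρ (t i) w = w → w = 1 ∨ w = z i) →
      scMk (sqs P) (x i * x i) (hxx i) = 1 ∨ scMk (sqs P) (x i * x i) (hxx i) = z i := by
    intro i g hg h3 hz hfix
    obtain ⟨y, hy⟩ := QuotientGroup.mk_surjective (ι g)
    have hρy : ρ g = actV P y := rhoG_apply ι hy
    have hcomm : (x i)⁻¹ * (y * x i * y⁻¹) ∈ P := by
      apply mem_of
      simp only [QuotientGroup.mk_mul, QuotientGroup.mk_inv, hx, hy]
      rw [← map_inv, ← map_inv, ← map_mul, ← map_mul, ← map_mul, ← hg]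
      simp
    rw [hρy] at h3 hz hfix
    rw [hτx] at hfix
    refine sq_value (hxx i) hcomm ?_ h3 ?_ hz (G i).ne hfix
    · intro v
      rw [← hτx]
      exact ht2 i v
    · intro v
      rw [← hτx]
      exact (G i).val v
  have hq : ∀ i, scMk (sqs P) (x i * x i) (hxx i) = 1 ∨ scMk (sqs P) (x i * x i) (hxx i) = z i := by
    intro i
    fin_cases i
    · exact hqgen 0 (b 0) hp₀.tb T00.b3 a3 a7
    · exact hqgen 1 (a 0) hp₀.ta' T01.b3 c3 c7
    · exact hqgen 2 (a 1) hp₁.ta' T12.b3 e3 e7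
  -- commutators
  have hcP : ∀ i j, x i * x j * (x i)⁻¹ * (x j)⁻¹ ∈ P := by
    intro i j
    apply mem_of
    simp only [QuotientGroup.mk_mul, QuotientGroup.mk_inv, hx]
    rw [← map_inv, ← map_inv, ← map_mul, ← map_mul, ← map_mul, htc i j]
    simp
  have hqfix : ∀ i j, actV P (x j) (scMk (sqs P) (x i * x i) (hxx i)) =
      scMk (sqs P) (x i * x i) (hxx i) := by
    intro i j
    rw [← hτx]
    rcases hq i with h | h <;> rw [h]
    · exact map_one _
    · exact hzfix j i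
  have hcc : ∀ i j, i ≠ j → scMk (sqs P) _ (hcP i j) ∈ W := by
    intro i j hij
    apply hWcomm i j hij
    · rw [hτx]
      exact comm_fix (hxx i) (hcP i j) (hqfix i j)
    · rw [hτx]
      have h1 := comm_fix (hxx j) (hcP j i) (hqfix j i)
      have h2 : scMk (sqs P) _ (hcP j i) = scMk (sqs P) _ (hcP i j) := by
        have h3 : (scMk (sqs P) _ (hcP i j))⁻¹ = scMk (sqs P) _ (hcP i j) :=
          inv_eq_of_mul_eq_one_left (hV _)
        rw [← h3, scMk_inv]
        apply scMk_congr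
        group
      rwa [h2] at h1
  -- the section
  set N : Subgroup X := pre W with hN
  have hNP : N ≤ P := pre_le (sqs_le P) W
  have hDN : sqs P ≤ N := le_pre (sqs_le P) W
  have memN : ∀ {c : X} (hc : c ∈ P), c ∈ N ↔ scMk (sqs P) c hc ∈ W := fun hc => mem_pre_iff W hc
  have hconj : ∀ g : X, (∀ w ∈ W, actV P g w = w) → ∀ c ∈ N, g * c * g⁻¹ ∈ N ∧ g⁻¹ * c * g ∈ N := by
    intro g hg c hc
    have hcP' : c ∈ P := hNP hc
    have hw := (memN hcP').mp hc
    constructor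
    · rw [memN (hPn.conj_mem c hcP' g)]
      have h1 := hg _ hw
      rw [scAct_mk] at h1
      rw [h1]
      exact hw
    · have hm : g⁻¹ * c * g ∈ P := by
        have := hPn.conj_mem c hcP' g⁻¹
        simpa using this
      rw [memN hm]
      have h1 : actV P g⁻¹ (scMk (sqs P) c hcP') = scMk (sqs P) c hcP' := by
        conv_lhs => rw [← hg _ hw]
        have h2 : (actV P g⁻¹) * (actV P g) = 1 := by rw [← map_mul, inv_mul_cancel, map_one]
        exact congrArg (fun σ : MulAut (VV P) => σ (scMk (sqs P) c hcP')) h2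
      rw [scAct_mk] at h1
      have h3 : scMk (sqs P) (g⁻¹ * c * g) hm = scMk (sqs P) (g⁻¹ * c * g⁻¹⁻¹)
          (Subgroup.Normal.conj_mem ‹_› c hcP' g⁻¹) := by
        apply scMk_congr
        simp
      rw [h3, h1]
      exact hw
  have hpx : ∀ p ∈ P, ∀ i, p * x i * p⁻¹ * (x i)⁻¹ ∈ N := by
    intro p hp i
    have hm : p * x i * p⁻¹ * (x i)⁻¹ ∈ P := by
      have h1 := hPn.conj_mem _ (P.inv_mem hp) (x i)
      have h2 : p * x i * p⁻¹ * (x i)⁻¹ = p * (x i * p⁻¹ * (x i)⁻¹) := by group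
      rw [h2]
      exact P.mul_mem hp h1
    rw [memN hm]
    have h1 : scMk (sqs P) _ hm = scMk (sqs P) p hp * actV P (x i) (scMk (sqs P) p hp) := by
      have h3 : scMk (sqs P) p⁻¹ (P.inv_mem hp) = scMk (sqs P) p hp := by
        rw [← scMk_inv hp]
        exact inv_eq_of_mul_eq_one_left (hV _)
      calc scMk (sqs P) _ hm = scMk (sqs P) p hp * actV P (x i) (scMk (sqs P) p⁻¹ (P.inv_mem hp)) := by
            rw [scAct_mk, scMk_mul]
            apply scMk_congr
            group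
        _ = _ := by rw [h3]
    rw [h1, ← hτx]
    rcases (G i).val (scMk (sqs P) p hp) with h | h <;> rw [h]
    · exact W.one_mem
    · exact hzW i
  let gens : Set X := (P : Set X) ∪ Set.range x
  have hs : Sec (Subgroup.closure gens) N := by
    apply sec_of_gens
    · exact fun c hc => Subgroup.subset_closure (Or.inl (hNP hc))
    · rintro s (hs | ⟨i, rfl⟩) c hc
      · refine hconj s (fun w _ => ?_) c hc
        rw [actV_of_mem hs]
        rfl
      · refine hconj (x i) (fun w hw => ?_) c hc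
        rw [← hτx]
        exact hWfix i w hw
    · rintro s (hs | ⟨i, rfl⟩) s' (hs' | ⟨j, rfl⟩)
      · exact hDN (comm_mem_sqs hs hs')
      · exact hpx s hs j
      · have := N.inv_mem (hpx s' hs' i)
        have e : (s' * x i * s'⁻¹ * (x i)⁻¹)⁻¹ = x i * s' * (x i)⁻¹ * s'⁻¹ := by group
        rwa [e] at this
      · by_cases hij : i = j
        · subst hij
          simp [N.one_mem]
        · rw [memN (hcP i j)]
          exact hcc i j hij
    · rintro s (hs | ⟨i, rfl⟩)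
      · exact hDN (sq_mem_sqs hs)
      · rw [memN (hxx i)]
        rcases hq i with h | h <;> rw [h]
        · exact W.one_mem
        · exact hzW i
  have hb := card_le_of_sectional hsec hs
  -- numerics
  set H := Subgroup.closure gens with hH
  have hPH : P ≤ H := fun p hp => Subgroup.subset_closure (Or.inl hp)
  have hxH : ∀ i, x i ∈ H := fun i => Subgroup.subset_closure (Or.inr ⟨i, rfl⟩)
  let f : H →* X ⧸ P := (QuotientGroup.mk' P).comp H.subtype
  have hf := f.ker.card_mul_index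
  rw [Subgroup.index_ker] at hf
  have hfker : f.ker = P.subgroupOf H := by
    ext y
    rw [MonoidHom.mem_ker, Subgroup.mem_subgroupOf]
    exact QuotientGroup.eq_one_iff _
  have hkcard : Nat.card f.ker = Nat.card P := by
    rw [hfker]
    exact Nat.card_congr (Subgroup.subgroupOfEquivOfLe hPH).toEquiv
  have hrange : 8 ≤ Nat.card f.range := by
    let y : Bool × Bool × Bool → H := fun s =>
      (if s.1 then ⟨x 0, hxH 0⟩ else 1) * (if s.2.1 then ⟨x 1, hxH 1⟩ else 1) *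
        (if s.2.2 then ⟨x 2, hxH 2⟩ else 1)
    have hif : ∀ (i : Fin 3) (b : Bool), f (if b then ⟨x i, hxH i⟩ else 1) =
        ι (if b then t i else 1) := by
      intro i b
      cases b
      · simp
      · change ((x i : X) : X ⧸ P) = _
        rw [hx]
        simp
    have hfy : ∀ s, f (y s) = ι ((if s.1 then t 0 else 1) * (if s.2.1 then t 1 else 1) *
        (if s.2.2 then t 2 else 1)) := by
      intro s
      simp only [y, map_mul]
      rw [hif, hif, hif]
    let g : Bool × Bool × Bool → f.range := fun s => ⟨f (y s), ⟨y s, rfl⟩⟩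
    have hg : Function.Injective g := by
      intro s s' hss
      have h1 : f (y s) = f (y s') := congrArg Subtype.val hss
      rw [hfy, hfy] at h1
      exact hinj (hι h1)
    have h1 := Nat.card_le_card_of_injective g hg
    have h2 : Nat.card (Bool × Bool × Bool) = 8 := by
      rw [Nat.card_eq_fintype_card]
      rfl
    rwa [h2] at h1
  have hcardP : Nat.card (VV P) * Nat.card (sqs P) = Nat.card P := card_sc (sqs_le P)
  have hcardN : Nat.card N = Nat.card W * Nat.card (sqs P) := card_pre (sqs_le P) W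
  rw [h16] at hcardP
  rw [hkcard] at hf
  have hDpos : 0 < Nat.card (sqs P) := Nat.card_pos
  have h3 : 8 * Nat.card P ≤ Nat.card H := by
    rw [← hf, mul_comm]
    exact Nat.mul_le_mul_left _ hrange
  rw [hcardN] at hb
  have h4 : Nat.card W * Nat.card (sqs P) ≤ 4 * Nat.card (sqs P) := Nat.mul_le_mul_right _ hcardW
  have h5 : (2 : ℕ) ^ 4 = 16 := by norm_num
  rw [h5] at hb
  omega

end grp

section data

/-- The symmetric group of degree six. -/
abbrev S6 := Equiv.Perm (Fin 6)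

/-- A permutation from its two tables. -/
def mk6 (f g : Fin 6 → Fin 6) (h₁ : ∀ i, g (f i) = i := by decide) (h₂ : ∀ i, f (g i) = i := by decide) :
    S6 := ⟨f, g, h₁, h₂⟩

def a₀ : S6 := mk6 ![1,2,0,3,4,5] ![2,0,1,3,4,5]
def b₀ : S6 := mk6 ![0,1,2,4,5,3] ![0,1,2,5,3,4]
def sw₁ : S6 := mk6 ![3,4,5,0,1,2] ![3,4,5,0,1,2]
def sw₂ : S6 := mk6 ![0,2,1,3,4,5] ![0,2,1,3,4,5]
def tI : Fin 3 → S6 := ![mk6 ![1,0,2,3,4,5] ![1,0,2,3,4,5], mk6 ![0,1,3,2,4,5] ![0,1,3,2,4,5], mk6 ![0,1,2,3,5,4] ![0,1,2,3,5,4]]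
def aI : Fin 3 → S6 := ![mk6 ![1,4,2,3,0,5] ![4,0,2,3,1,5], mk6 ![1,2,0,3,4,5] ![2,0,1,3,4,5], mk6 ![2,1,3,0,4,5] ![3,1,0,2,4,5]]
def bI : Fin 3 → S6 := ![mk6 ![0,1,3,5,4,2] ![0,1,5,2,4,3], mk6 ![0,1,2,4,5,3] ![0,1,2,5,3,4], mk6 ![0,4,2,3,5,1] ![0,5,2,3,1,4]]
def tII : Fin 3 → S6 := ![mk6 ![1,0,3,2,5,4] ![1,0,3,2,5,4], mk6 ![1,0,4,5,2,3] ![1,0,4,5,2,3], mk6 ![1,0,5,4,3,2] ![1,0,5,4,3,2]]
def aII : Fin 3 → S6 := ![mk6 ![2,4,5,1,3,0] ![5,3,0,4,1,2], mk6 ![2,5,4,1,0,3] ![4,3,0,5,2,1], mk6 ![2,5,3,0,1,4] ![3,4,0,2,5,1]]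
def bII : Fin 3 → S6 := ![mk6 ![2,3,5,4,1,0] ![5,4,0,1,3,2], mk6 ![2,3,4,5,0,1] ![4,5,0,1,2,3], mk6 ![2,4,3,0,5,1] ![3,5,0,2,1,4]]
def cI : Fin 3 → S6 := ![mk6 ![0,1,4,2,3,5] ![0,1,3,4,2,5], mk6 ![0,1,2,3,4,5] ![0,1,2,3,4,5], mk6 ![0,2,3,1,4,5] ![0,3,1,2,4,5]]
def dI : Fin 3 → S6 := ![mk6 ![2,3,5,0,1,4] ![3,4,0,1,5,2], mk6 ![3,4,5,0,1,2] ![3,4,5,0,1,2], mk6 ![1,4,5,0,2,3] ![3,0,4,5,1,2]]
def cII : Fin 3 → S6 := ![mk6 ![0,2,5,1,4,3] ![0,3,1,5,4,2], mk6 ![0,2,4,1,5,3] ![0,3,1,5,2,4], mk6 ![0,2,3,1,5,4] ![0,3,1,2,5,4]]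
def dII : Fin 3 → S6 := ![mk6 ![0,2,5,1,3,4] ![0,3,1,4,5,2], mk6 ![0,2,4,1,3,5] ![0,3,1,4,2,5], mk6 ![0,2,3,1,4,5] ![0,3,1,2,4,5]]

lemma pairsI : Pair (tI 0) (tI 1) (aI 0) (bI 0) ∧ Pair (tI 0) (tI 2) (aI 1) (bI 1) ∧
    Pair (tI 1) (tI 2) (aI 2) (bI 2) := by
  refine ⟨?_, ?_, ?_⟩ <;> constructor <;> decide +kernel

lemma pairsII : Pair (tII 0) (tII 1) (aII 0) (bII 0) ∧ Pair (tII 0) (tII 2) (aII 1) (bII 1) ∧
    Pair (tII 1) (tII 2) (aII 2) (bII 2) := by
  refine ⟨?_, ?_, ?_⟩ <;> constructor <;> decide +kernel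

lemma bitsI : Function.Injective (fun s : Bool × Bool × Bool =>
      (if s.1 then tI 0 else 1) * (if s.2.1 then tI 1 else 1) * (if s.2.2 then tI 2 else 1)) := by
  decide +kernel

lemma bitsII : Function.Injective (fun s : Bool × Bool × Bool =>
      (if s.1 then tII 0 else 1) * (if s.2.1 then tII 1 else 1) * (if s.2.2 then tII 2 else 1)) := by
  decide +kernel

lemma conjI : (∀ i, cI i * a₀ * (cI i)⁻¹ = aI i) ∧ (∀ i, dI i * a₀ * (dI i)⁻¹ = bI i) := by
  decide +kernel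

lemma conjII : (∀ i, cII i * (a₀ * b₀) * (cII i)⁻¹ = aII i) ∧
    (∀ i, dII i * (a₀ * b₀) * (dII i)⁻¹ = bII i) := by
  decide +kernel

lemma conj₁ : sw₁ * a₀ * sw₁⁻¹ = b₀ := by decide +kernel
lemma conj₂ : sw₂ * (a₀ * b₀) * sw₂⁻¹ = a₀ * a₀ * b₀ := by decide +kernel
lemma a₀_3 : a₀ * a₀ * a₀ = 1 := by decide +kernel
lemma b₀_3 : b₀ * b₀ * b₀ = 1 := by decide +kernel
lemma ab₀_comm : a₀ * b₀ = b₀ * a₀ := by decide +kernel
lemma a₀_ne : a₀ ≠ 1 := by decide +kernel
lemma ab₀_ne : a₀ * b₀ ≠ 1 := by decide +kernel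
lemma ab₀_3 : (a₀ * b₀) * (a₀ * b₀) * (a₀ * b₀) = 1 := by decide +kernel

end data

section final

variable {S V : Type*} [Group S] [Group V]

lemma card_fix_conj (ρ : S →* MulAut V) (h g : S) :
    Nat.card (fixS (ρ (h * g * h⁻¹))) = Nat.card (fixS (ρ g)) := by
  symm
  refine Nat.card_congr (Equiv.subtypeEquiv (ρ h).toEquiv ?_)
  intro v
  change ρ g v = v ↔ ρ (h * g * h⁻¹) (ρ h v) = ρ h v
  rw [map_mul, map_mul, map_inv]
  change _ ↔ ρ h (ρ g ((ρ h)⁻¹ (ρ h v))) = ρ h v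
  have e : (ρ h)⁻¹ (ρ h v) = v := (ρ h).symm_apply_apply v
  rw [e]
  exact ⟨fun h1 => by rw [h1], fun h1 => (ρ h).injective h1⟩

variable [Finite V]

lemma card_four_of_fix (h16 : Nat.card V = 16) (ρ : S →* MulAut V) (hρ : Function.Injective ρ)
    {γ : S} (h3 : γ * γ * γ = 1) (h1 : γ ≠ 1) {v : V} (hv : v ≠ 1) (hfix : ρ γ v = v) :
    Nat.card (fixS (ρ γ)) = 4 := by
  have h3' : ∀ w, ρ γ (ρ γ (ρ γ w)) = w := fun w => by
    rw [rho_mul, rho_mul, h3, rho_one']
  rcases card_fix3 h16 (ρ γ) h3' with h | h | h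
  · exfalso
    have hb : fixS (ρ γ) = ⊥ := Subgroup.card_eq_one.mp h
    have : v ∈ fixS (ρ γ) := hfix
    rw [hb, Subgroup.mem_bot] at this
    exact hv this
  · exact h
  · exfalso
    have h2 := eq_one_of_card_fix h16 h
    exact h1 (hρ (by rw [h2, map_one]))

end final

section thm

variable {X : Type*} [Group X] [Finite X] {P : Subgroup X} [hPn : P.Normal]

/-- `S₆` cannot act faithfully on the Frattini quotient. -/
theorem false_of_S6 (ι : S6 →* X ⧸ P) (hker : ∀ x, actV P x = 1 → x ∈ P)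
    (hι : Function.Injective ι) (hsec : Cfsg.SectionalPRankLE 2 4 X)
    (h16 : Nat.card (VV P) = 16) : False := by
  classical
  have hV := V_sq (P := P)
  set ρ := rhoG ι with hρdef
  have hρ : Function.Injective ρ := rhoG_inj ι hker hι
  have hαβ : ∀ v, ρ a₀ (ρ b₀ v) = ρ b₀ (ρ a₀ v) := fun v => by rw [rho_mul, rho_mul, ab₀_comm]
  have hα3 : ∀ v, ρ a₀ (ρ a₀ (ρ a₀ v)) = v := fun v => by rw [rho_mul, rho_mul, a₀_3, rho_one']
  have hβ3 : ∀ v, ρ b₀ (ρ b₀ (ρ b₀ v)) = v := fun v => by rw [rho_mul, rho_mul, b₀_3, rho_one']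
  -- a type of elements of order three has fixed points
  have hcases : Nat.card (fixS (ρ a₀)) = 4 ∨ Nat.card (fixS (ρ (a₀ * b₀))) = 4 := by
    by_contra hcon
    push Not at hcon
    obtain ⟨h1, h2⟩ := hcon
    have hb₀ : Nat.card (fixS (ρ b₀)) ≠ 4 := by
      rw [← conj₁, card_fix_conj]
      exact h1
    have haab : Nat.card (fixS (ρ (a₀ * a₀ * b₀))) ≠ 4 := by
      rw [← conj₂, card_fix_conj]
      exact h2
    have htriv : ∀ v : VV P, v = 1 := by
      apply trivial_of_free hV (ρ a₀) (ρ b₀) hαβ hα3 hβ3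
      · intro v hv
        by_contra hv1
        exact h1 (card_four_of_fix h16 ρ hρ a₀_3 a₀_ne hv1 hv)
      · intro v hv
        by_contra hv1
        apply hb₀
        refine card_four_of_fix h16 ρ hρ b₀_3 (by decide +kernel) hv1 hv
      · intro v hv
        by_contra hv1
        apply h2
        refine card_four_of_fix h16 ρ hρ ab₀_3 ab₀_ne hv1 ?_
        rw [map_mul]
        exact hv
      · intro v hv
        by_contra hv1
        apply haab
        refine card_four_of_fix h16 ρ hρ (γ := a₀ * a₀ * b₀) (by decide +kernel) (by decide +kernel)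
          hv1 ?_
        rw [map_mul, map_mul]
        exact hv
    have : Nat.card (VV P) = 1 := by
      haveI : Subsingleton (VV P) := ⟨fun a b => by rw [htriv a, htriv b]⟩
      exact Nat.card_unique
    omega
  rcases hcases with h | h
  · obtain ⟨p1, p2, p3⟩ := pairsI
    refine false_of_data ι hker hι hsec h16 tI aI bI p1 p2 p3 (fun i => ⟨?_, ?_⟩) bitsI
    · rw [← conjI.1 i, card_fix_conj]
      exact h
    · rw [← conjI.2 i, card_fix_conj]
      exact h
  · obtain ⟨p1, p2, p3⟩ := pairsII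
    refine false_of_data ι hker hι hsec h16 tII aII bII p1 p2 p3 (fun i => ⟨?_, ?_⟩) bitsII
    · rw [← conjII.1 i, card_fix_conj]
      exact h
    · rw [← conjII.2 i, card_fix_conj]
      exact h

end thm

/-- `S₅ → S₆`, restricted to `A₅`. -/
noncomputable def theta5 : Cfsg.Agent.Lib.SecRank4.Orb.A5 →* S6 :=
  (Equiv.Perm.viaEmbeddingHom (Fin.castSuccEmb (n := 5))).comp
    (alternatingGroup (Fin 5)).subtype

lemma theta5_inj : Function.Injective theta5 :=
  (Equiv.Perm.viaEmbeddingHom_injective _).comp (Subgroup.subtype_injective _)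

/-- `S₆ → S₇`. -/
noncomputable def theta7 : S6 →* Equiv.Perm (Fin 7) :=
  Equiv.Perm.viaEmbeddingHom (Fin.castSuccEmb (n := 6))

lemma theta7_inj : Function.Injective theta7 := Equiv.Perm.viaEmbeddingHom_injective _

/-- The sign as a permutation of two points. -/
def signPerm : ℤˣ →* Equiv.Perm (Fin 2) where
  toFun e := if e = 1 then 1 else Equiv.swap 0 1
  map_one' := by decide
  map_mul' := by decide

lemma sign_signPerm : ∀ e : ℤˣ, Equiv.Perm.sign (signPerm e) = e := by decide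

/-- `S₆ → S₈` with even image. -/
noncomputable def theta8' : S6 →* Equiv.Perm (Fin 8) :=
  (Equiv.permCongrHom (finSumFinEquiv (m := 6) (n := 2))).toMonoidHom.comp
    ((Equiv.Perm.sumCongrHom (Fin 6) (Fin 2)).comp
      (MonoidHom.prod (MonoidHom.id S6) (signPerm.comp Equiv.Perm.sign)))

lemma theta8'_inj : Function.Injective theta8' := by
  intro g g' h
  have h1 := (Equiv.permCongrHom (finSumFinEquiv (m := 6) (n := 2))).injective h
  have h2 := Equiv.Perm.sumCongrHom_injective h1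
  exact congrArg Prod.fst h2

lemma theta8'_even (g : S6) : theta8' g ∈ alternatingGroup (Fin 8) := by
  rw [Equiv.Perm.mem_alternatingGroup]
  change Equiv.Perm.sign (Equiv.permCongr (finSumFinEquiv (m := 6) (n := 2))
    (Equiv.sumCongr g (signPerm (Equiv.Perm.sign g)))) = 1
  rw [Equiv.Perm.sign_permCongr, Equiv.Perm.sign_sumCongr, sign_signPerm]
  exact Int.units_mul_self _

/-- `S₆ → A₈`. -/
noncomputable def theta8 : S6 →* ↥(alternatingGroup (Fin 8)) :=
  theta8'.codRestrict _ theta8'_even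

lemma theta8_inj : Function.Injective theta8 := fun _ _ h =>
  theta8'_inj (congrArg Subtype.val h)

/-- The second half of the theorem. -/
theorem not_large {X : Type*} [Group X] [Finite X]
    (hchar : Subgroup.centralizer (Cfsg.pCore 2 X : Set X) ≤ Cfsg.pCore 2 X)
    (hsec : Cfsg.SectionalPRankLE 2 4 X) :
    ¬ (Nonempty (X ⧸ Cfsg.pCore 2 X ≃* Equiv.Perm (Fin 6)) ∨
        Nonempty (X ⧸ Cfsg.pCore 2 X ≃* Equiv.Perm (Fin 7)) ∨
        Nonempty (X ⧸ Cfsg.pCore 2 X ≃* ↥(alternatingGroup (Fin 8)))) := by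
  haveI hn : (Cfsg.pCore 2 X).Normal := Cfsg.pCore_normal 2 X
  have hker : ∀ x, actV (Cfsg.pCore 2 X) x = 1 → x ∈ Cfsg.pCore 2 X :=
    fun x hx => Cfsg.Agent.Lib.SecRank4.Main.mem_of_actV_eq_one hchar hx
  have key : ∀ ι : S6 →* X ⧸ Cfsg.pCore 2 X, Function.Injective ι → False := by
    intro ι hι
    have h16 := Cfsg.Agent.Lib.SecRank4.Main.card_V (ι.comp theta5) hker (hι.comp theta5_inj) hsec
    exact false_of_S6 ι hker hι hsec h16
  rintro (⟨⟨e⟩⟩ | ⟨⟨e⟩⟩ | ⟨⟨e⟩⟩)
  · exact key e.symm.toMonoidHom e.symm.injective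
  · exact key (e.symm.toMonoidHom.comp theta7) (e.symm.injective.comp theta7_inj)
  · exact key (e.symm.toMonoidHom.comp theta8) (e.symm.injective.comp theta8_inj)

end Cfsg.Agent.Lib.SecRank4.Six
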