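import Cfsg.Agent.Lib.SecRank4.Layers

/-!
# The squaring map on the Frattini quotient and the basic section bound
-/

set_option autoImplicit false

namespace Cfsg.Agent.Lib.SecRank4.Step

open Cfsg.Agent.Lib.SecRank4.Sect Cfsg.Agent.Lib.SecRank4.Layers
open Cfsg.Agent.Lib.PGroups.CentralizerIndex (Sec card_le_of_sectional)

variable {X : Type*} [Group X] {P : Subgroup X} [hPn : P.Normal]

/-- The Frattini quotient of `P`. -/
abbrev VV (P : Subgroup X) [P.Normal] := Sc (sqs P) P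
/-- The next layer. -/
abbrev MM (P : Subgroup X) [P.Normal] := Sc (nxt P (sqs P)) (sqs P)
/-- The action on `VV`. -/
noncomputable abbrev actV (P : Subgroup X) [P.Normal] : X →* MulAut (VV P) := scAct (sqs P) P
/-- The action on `MM`. -/
noncomputable abbrev actM (P : Subgroup X) [P.Normal] : X →* MulAut (MM P) :=
  scAct (nxt P (sqs P)) (sqs P)

lemma V_sq (v : VV P) : v * v = 1 := by
  obtain ⟨y, hy, rfl⟩ := scMk_surj v
  rw [scMk_mul, scMk_eq_one_iff]
  exact sq_mem_sqs hy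

lemma M_sq (m : MM P) : m * m = 1 := by
  obtain ⟨y, hy, rfl⟩ := scMk_surj m
  rw [scMk_mul, scMk_eq_one_iff]
  exact sq_mem_nxt hy

lemma comm_D_P {d y : X} (hd : d ∈ sqs P) (hy : y ∈ P) : y * d * y⁻¹ * d⁻¹ ∈ nxt P (sqs P) := by
  have h := (nxt P (sqs P)).inv_mem (comm_mem_nxt hd hy)
  have h2 : (d * y * d⁻¹ * y⁻¹)⁻¹ = y * d * y⁻¹ * d⁻¹ := by group
  rwa [h2] at h

lemma actV_of_mem {y : X} (hy : y ∈ P) : actV P y = 1 :=
  scAct_eq_one (fun z hz => comm_mem_sqs hy hz)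

lemma actM_of_mem {y : X} (hy : y ∈ P) : actM P y = 1 :=
  scAct_eq_one (fun _ hd => comm_D_P hd hy)

lemma scMk_congr {A B : Subgroup X} [A.Normal] {y y' : X} (h : y = y') (hy : y ∈ B) (hy' : y' ∈ B) :
    scMk A y hy = scMk A y' hy' := by
  subst h; rfl

/-- A chosen lift. -/
noncomputable def lift (v : VV P) : X := Classical.choose (scMk_surj v)
lemma lift_mem (v : VV P) : lift v ∈ P := Classical.choose (Classical.choose_spec (scMk_surj v))
lemma lift_spec (v : VV P) : v = scMk (sqs P) (lift v) (lift_mem v) :=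
  Classical.choose_spec (Classical.choose_spec (scMk_surj v))

/-- The squaring map. -/
noncomputable def sq (v : VV P) : MM P :=
  scMk (nxt P (sqs P)) (lift v * lift v) (sq_mem_sqs (lift_mem v))

lemma sq_mk {y : X} (hy : y ∈ P) :
    sq (scMk (sqs P) y hy) = scMk (nxt P (sqs P)) (y * y) (sq_mem_sqs hy) := by
  unfold sq
  set v := scMk (sqs P) y hy with hv
  set y' := lift v with hy'
  have hy'm : y' ∈ P := lift_mem v
  have h1 : scMk (sqs P) y' hy'm = scMk (sqs P) y hy := (lift_spec v).symm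
  rw [scMk_eq_iff] at h1
  set d := y'⁻¹ * y with hd
  have hyd : y = y' * d := by rw [hd]; group
  rw [scMk_eq_iff]
  have h2 := comm_D_P h1 (P.inv_mem hy'm)
  have h3 := sq_mem_nxt (P := P) h1
  have h4 : (y' * y')⁻¹ * (y * y) = (y'⁻¹ * d * y'⁻¹⁻¹ * d⁻¹) * (d * d) := by
    rw [hyd]; group
  rw [h4]
  exact (nxt P (sqs P)).mul_mem h2 h3

lemma sq_one : sq (1 : VV P) = 1 := by
  have := sq_mk (P := P) (y := 1) P.one_mem
  rw [scMk_one] at this
  rw [this, scMk_eq_one_iff]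
  simp

lemma sq_act (x : X) (v : VV P) : sq (actV P x v) = actM P x (sq v) := by
  obtain ⟨y, hy, rfl⟩ := scMk_surj v
  rw [scAct_mk, sq_mk, sq_mk, scAct_mk]
  apply scMk_congr
  group

/-- The identity behind bilinearity of the polarization. -/
lemma polar_identity {G : Type*} [Group G] (R Z : Subgroup G) (hZR : Z ≤ R)
    (hsqZ : ∀ p ∈ R, p * p ∈ Z) (hcen : ∀ z ∈ Z, ∀ p ∈ R, z * p = p * z)
    (hexp : ∀ z ∈ Z, z * z = 1) {a b c : G} (ha : a ∈ R) (hb : b ∈ R) (hc : c ∈ R) :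
    (a * b * c * (a * b * c)) * (a * b * (a * b)) * (c * c) =
      ((a * c * (a * c)) * (a * a) * (c * c)) * ((b * c * (b * c)) * (b * b) * (c * c)) := by
  -- commutators lie in `Z`
  have hcomZ : ∀ p ∈ R, ∀ q ∈ R, q * p * q⁻¹ * p⁻¹ ∈ Z := by
    intro p hp q hq
    have h1 := hsqZ _ (R.mul_mem hq hp)
    have h2 := hsqZ _ (R.inv_mem hp)
    have h3 := hsqZ _ (R.inv_mem hq)
    -- (qp)² · (p⁻¹ q⁻¹)... we use centrality of squares
    have h4 : q * p * q⁻¹ * p⁻¹ = (q * p * (q * p)) * (p⁻¹ * (q⁻¹ * q⁻¹) * p⁻¹⁻¹) * (p⁻¹ * p⁻¹) := by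
      group
    rw [h4]
    refine Z.mul_mem (Z.mul_mem h1 ?_) h2
    have h5 : p⁻¹ * (q⁻¹ * q⁻¹) * p⁻¹⁻¹ = q⁻¹ * q⁻¹ := by
      rw [inv_inv, ← hcen _ h3 _ (R.inv_mem hp)]
      group
    rw [h5]
    exact h3
  have hkey : ∀ p ∈ R, ∀ q ∈ R, (p * q) * (p * q) = (q * p * q⁻¹ * p⁻¹) * (p * p) * (q * q) := by
    intro p hp q hq
    have h1 := hcen _ (hcomZ p hp q hq) p hp
    calc (p * q) * (p * q) = p * (q * p * q⁻¹ * p⁻¹) * p * (q * q) := by group
      _ = (q * p * q⁻¹ * p⁻¹) * p * p * (q * q) := by rw [← h1]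
      _ = _ := by group
  have hab := R.mul_mem ha hb
  have hcomm : ∀ z ∈ Z, ∀ w ∈ Z, z * w = w * z := fun z hz w hw => hcen z hz w (hZR hw)
  set z₁ := c * (a * b) * c⁻¹ * (a * b)⁻¹ with hz₁
  set z₂ := c * a * c⁻¹ * a⁻¹ with hz₂
  set z₃ := c * b * c⁻¹ * b⁻¹ with hz₃
  have mz₁ : z₁ ∈ Z := hcomZ _ hab _ hc
  have mz₂ : z₂ ∈ Z := hcomZ _ ha _ hc
  have mz₃ : z₃ ∈ Z := hcomZ _ hb _ hc
  have hz : z₁ = z₂ * z₃ := by
    have h2 := hcen _ mz₃ _ (R.mul_mem (R.mul_mem hc ha) (R.inv_mem hc))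
    calc z₁ = (c * a * c⁻¹) * z₃ * a⁻¹ := by rw [hz₁, hz₃]; group
      _ = z₃ * (c * a * c⁻¹) * a⁻¹ := by rw [← h2]
      _ = z₃ * z₂ := by rw [hz₂]; group
      _ = z₂ * z₃ := hcomm _ mz₃ _ mz₂
  have mA := hsqZ _ ha
  have mB := hsqZ _ hb
  have mC := hsqZ _ hc
  have mW := hsqZ _ hab
  rw [hkey _ hab _ hc, hkey _ ha _ hc, hkey _ hb _ hc, ← hz₁, ← hz₂, ← hz₃]
  set W := a * b * (a * b) with hW
  set A := a * a with hA
  set B := b * b with hB
  set C := c * c with hC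
  have e1 : z₁ * W * C * W * C = z₁ * (W * W) * (C * C) := by
    have : C * W = W * C := hcomm _ mC _ mW
    calc z₁ * W * C * W * C = z₁ * W * (C * W) * C := by group
      _ = z₁ * W * (W * C) * C := by rw [this]
      _ = _ := by group
  have e2 : z₂ * A * C * A * C = z₂ * (A * A) * (C * C) := by
    have : C * A = A * C := hcomm _ mC _ mA
    calc z₂ * A * C * A * C = z₂ * A * (C * A) * C := by group
      _ = z₂ * A * (A * C) * C := by rw [this]
      _ = _ := by group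
  have e3 : z₃ * B * C * B * C = z₃ * (B * B) * (C * C) := by
    have : C * B = B * C := hcomm _ mC _ mB
    calc z₃ * B * C * B * C = z₃ * B * (C * B) * C := by group
      _ = z₃ * B * (B * C) * C := by rw [this]
      _ = _ := by group
  rw [e1, hexp _ mW, hexp _ mC]
  calc z₁ * 1 * 1 = z₂ * z₃ := by rw [hz]; group
    _ = z₂ * (A * A) * (C * C) * (z₃ * (B * B) * (C * C)) := by
        rw [hexp _ mA, hexp _ mB, hexp _ mC]; group
    _ = _ := by rw [← e2, ← e3]

lemma sq_polar (u u' v : VV P) :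
    sq (u * u' * v) * sq (u * u') * sq v =
      (sq (u * v) * sq u * sq v) * (sq (u' * v) * sq u' * sq v) := by
  obtain ⟨a, ha, rfl⟩ := scMk_surj u
  obtain ⟨b, hb, rfl⟩ := scMk_surj u'
  obtain ⟨c, hc, rfl⟩ := scMk_surj v
  simp only [scMk_mul, sq_mk]
  apply Subtype.ext
  let π := QuotientGroup.mk' (nxt P (sqs P))
  have key := polar_identity (P.map π) ((sqs P).map π) (Subgroup.map_mono (sqs_le P))
    (by
      rintro _ ⟨y, hy, rfl⟩
      exact ⟨y * y, sq_mem_sqs hy, map_mul π y y⟩)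
    (by
      rintro _ ⟨d, hd, rfl⟩ _ ⟨y, hy, rfl⟩
      have h := comm_D_P hd hy
      change (QuotientGroup.mk' _ d) * (QuotientGroup.mk' _ y) =
        (QuotientGroup.mk' _ y) * (QuotientGroup.mk' _ d)
      rw [← map_mul, ← map_mul]
      change (QuotientGroup.mk (d * y) : X ⧸ nxt P (sqs P)) = QuotientGroup.mk (y * d)
      rw [QuotientGroup.eq]
      have h2 := (inferInstance : (nxt P (sqs P)).Normal).conj_mem _ h (d * y)⁻¹
      have h3 : (d * y)⁻¹ * (y * d * y⁻¹ * d⁻¹) * (d * y)⁻¹⁻¹ = (d * y)⁻¹ * (y * d) := by group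
      rwa [h3] at h2)
    (by
      rintro _ ⟨d, hd, rfl⟩
      change (QuotientGroup.mk' _ d) * (QuotientGroup.mk' _ d) = 1
      rw [← map_mul]
      exact (QuotientGroup.eq_one_iff _).mpr (sq_mem_nxt hd))
    (a := π a) (b := π b) (c := π c) ⟨a, ha, rfl⟩ ⟨b, hb, rfl⟩ ⟨c, hc, rfl⟩
  exact key

/-- Conjugates and squares in the `x`-fixed part. -/
theorem index_bound [Finite X] (hsec : Cfsg.SectionalPRankLE 2 4 X) {x : X} (hxP : x ∉ P)
    (hx2 : x * x ∈ sqs P) (hfix : Nat.card (fixS (actV P x)) = 4) :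
    Nat.card (MM P) ≤ 2 * Nat.card (fixS (actM P x)) := by
  classical
  set D := sqs P with hD
  set K := nxt P D with hK
  haveI hDn : D.Normal := inferInstance
  haveI hKn : K.Normal := inferInstance
  have hDP : D ≤ P := sqs_le P
  have hKD : K ≤ D := nxt_le P D
  set P₁ : Subgroup X := pre (fixS (actV P x)) with hP₁
  set C : Subgroup X := pre (fixS (actM P x)) with hC
  have hP₁P : P₁ ≤ P := pre_le hDP _
  have hDP₁ : D ≤ P₁ := le_pre hDP _
  have hCD : C ≤ D := pre_le hKD _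
  have hKC : K ≤ C := le_pre hKD _
  have memP₁ : ∀ {y : X}, y ∈ P₁ ↔ y ∈ P ∧ x * y * x⁻¹ * y⁻¹ ∈ D := by
    intro y
    constructor
    · intro h
      have hy := hP₁P h
      exact ⟨hy, scAct_mk_eq_iff.mp ((mem_pre_iff _ hy).mp h)⟩
    · rintro ⟨hy, h⟩
      exact (mem_pre_iff _ hy).mpr (scAct_mk_eq_iff.mpr h)
  have memC : ∀ {y : X}, y ∈ C ↔ y ∈ D ∧ x * y * x⁻¹ * y⁻¹ ∈ K := by
    intro y
    constructor
    · intro h
      have hy := hCD h
      exact ⟨hy, scAct_mk_eq_iff.mp ((mem_pre_iff _ hy).mp h)⟩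
    · rintro ⟨hy, h⟩
      exact (mem_pre_iff _ hy).mpr (scAct_mk_eq_iff.mpr h)
  -- conjugating `P₁` by `x`, `x⁻¹`
  have hP₁x : ∀ y ∈ P₁, x * y * x⁻¹ ∈ P₁ := by
    intro y hy
    obtain ⟨h1, h2⟩ := memP₁.mp hy
    refine memP₁.mpr ⟨hPn.conj_mem y h1 x, ?_⟩
    have h3 := hDn.conj_mem _ h2 x
    have h4 : x * (x * y * x⁻¹) * x⁻¹ * (x * y * x⁻¹)⁻¹ = x * (x * y * x⁻¹ * y⁻¹) * x⁻¹ := by group
    rwa [h4]
  have hP₁xi : ∀ y ∈ P₁, x⁻¹ * y * x ∈ P₁ := by
    intro y hy
    obtain ⟨h1, h2⟩ := memP₁.mp hy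
    have hm : x⁻¹ * y * x ∈ P := by
      have := hPn.conj_mem y h1 x⁻¹
      simpa using this
    refine memP₁.mpr ⟨hm, ?_⟩
    have h3 := hDn.conj_mem _ h2 x⁻¹
    have h4 : x * (x⁻¹ * y * x) * x⁻¹ * (x⁻¹ * y * x)⁻¹ = x⁻¹ * (x * y * x⁻¹ * y⁻¹) * x⁻¹⁻¹ := by group
    rwa [h4]
  -- the group `H`
  let H : Subgroup X :=
    { carrier := {h | h ∈ P₁ ∨ x⁻¹ * h ∈ P₁}
      mul_mem' := by
        rintro a b (ha | ha) (hb | hb)
        · exact Or.inl (P₁.mul_mem ha hb)
        · right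
          have h1 := hP₁xi a ha
          have h2 : x⁻¹ * (a * b) = (x⁻¹ * a * x) * (x⁻¹ * b) := by group
          rw [h2]
          exact P₁.mul_mem h1 hb
        · right
          have h2 : x⁻¹ * (a * b) = (x⁻¹ * a) * b := by group
          rw [h2]
          exact P₁.mul_mem ha hb
        · left
          have h1 := hP₁x _ ha
          have h2 : a * b = (x * (x⁻¹ * a) * x⁻¹) * (x * x) * (x⁻¹ * b) := by group
          rw [h2]
          exact P₁.mul_mem (P₁.mul_mem h1 (hDP₁ hx2)) hb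
      one_mem' := Or.inl P₁.one_mem
      inv_mem' := by
        rintro a (ha | ha)
        · exact Or.inl (P₁.inv_mem ha)
        · right
          have h1 := hP₁xi _ (P₁.inv_mem ha)
          have h2 : x⁻¹ * a⁻¹ = (x⁻¹ * (x⁻¹ * a)⁻¹ * x) * (x * x)⁻¹ := by group
          rw [h2]
          exact P₁.mul_mem h1 (P₁.inv_mem (hDP₁ hx2)) }
  have memH : ∀ {h : X}, h ∈ H ↔ h ∈ P₁ ∨ x⁻¹ * h ∈ P₁ := Iff.rfl
  have hP₁H : P₁ ≤ H := fun y hy => Or.inl hy
  have hxH : x ∈ H := Or.inr (by simp [P₁.one_mem])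
  -- the quotient
  let π := QuotientGroup.mk' K
  have hπ1 : ∀ {a : X}, π a = 1 ↔ a ∈ K := fun {a} => QuotientGroup.eq_one_iff a
  have hcen : ∀ {d y : X}, d ∈ D → y ∈ P → π d * π y = π y * π d := by
    intro d y hd hy
    have h := comm_D_P hd hy
    have h1 : π (y * d * y⁻¹ * d⁻¹) = 1 := hπ1.mpr h
    simp only [map_mul, map_inv] at h1
    have h2 : π y * π d = π d * π y := by
      have : π y * π d * (π y)⁻¹ = π d := by
        have := mul_inv_eq_one.mp h1
        exact this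
      calc π y * π d = π y * π d * (π y)⁻¹ * π y := by group
        _ = π d * π y := by rw [this]
    exact h2.symm
  have hexp : ∀ {d : X}, d ∈ D → π d * π d = 1 := by
    intro d hd
    rw [← map_mul]
    exact hπ1.mpr (sq_mem_nxt hd)
  have memC' : ∀ {y : X}, y ∈ C ↔ y ∈ D ∧ π (x * y * x⁻¹) = π y := by
    intro y
    rw [memC]
    constructor
    · rintro ⟨h1, h2⟩
      refine ⟨h1, ?_⟩
      have := hπ1.mpr h2
      rw [map_mul, map_inv, mul_inv_eq_one] at this
      exact this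
    · rintro ⟨h1, h2⟩
      refine ⟨h1, hπ1.mp ?_⟩
      rw [map_mul, map_inv, h2]
      group
  -- squares of elements of `P₁`
  have hsqP₁ : ∀ p ∈ P₁, p * p ∈ C := by
    intro p hp
    obtain ⟨h1, h2⟩ := memP₁.mp hp
    refine memC'.mpr ⟨sq_mem_sqs h1, ?_⟩
    set d := x * p * x⁻¹ * p⁻¹ with hd
    have h3 : x * (p * p) * x⁻¹ = (d * p) * (d * p) := by rw [hd]; group
    rw [h3]
    simp only [map_mul]
    calc π d * π p * (π d * π p) = π d * (π p * π d) * π p := by group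
      _ = π d * (π d * π p) * π p := by rw [hcen h2 h1]
      _ = (π d * π d) * (π p * π p) := by group
      _ = π p * π p := by rw [hexp h2, one_mul]
  -- the commutator `[x, p]` lies in `C`
  have hcommC : ∀ p ∈ P₁, x * p * x⁻¹ * p⁻¹ ∈ C := by
    intro p hp
    obtain ⟨h1, h2⟩ := memP₁.mp hp
    refine memC'.mpr ⟨h2, ?_⟩
    set d := x * p * x⁻¹ * p⁻¹ with hd
    have h3 : π ((x * x) * p * (x * x)⁻¹) = π p := by
      simp only [map_mul, map_inv]
      have h4 := hcen hx2 h1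
      simp only [map_mul] at h4
      rw [h4]
      group
    have h5 : (x * x) * p * (x * x)⁻¹ = (x * d * x⁻¹) * d * p := by rw [hd]; group
    rw [h5] at h3
    simp only [map_mul] at h3
    have h6 : π x * π d * π x⁻¹ * π d = 1 := by
      have := congrArg (fun z => z * (π p)⁻¹) h3
      simpa [mul_assoc] using this
    have h7 : π x * π d * π x⁻¹ = π d := by
      have := congrArg (fun z => z * π d) h6
      simp only [one_mul, mul_assoc] at this
      rw [hexp h2] at this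
      simpa [mul_assoc] using this
    simp only [map_mul]
    exact h7
  have hx2C : x * x ∈ C := by
    refine memC'.mpr ⟨hx2, ?_⟩
    congr 1
    group
  -- conjugation preserves `C`
  have hconjP : ∀ p ∈ P, ∀ c ∈ C, p * c * p⁻¹ ∈ C := by
    intro p hp c hc
    have h1 := comm_D_P (hCD hc) hp
    have h2 : p * c * p⁻¹ = (p * c * p⁻¹ * c⁻¹) * c := by group
    rw [h2]
    exact C.mul_mem (hKC h1) hc
  have hconjx : ∀ c ∈ C, x * c * x⁻¹ ∈ C := by
    intro c hc
    have h1 := (memC.mp hc).2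
    have h2 : x * c * x⁻¹ = (x * c * x⁻¹ * c⁻¹) * c := by group
    rw [h2]
    exact C.mul_mem (hKC h1) hc
  have hsec' : Sec H C := by
    apply sec_of_sq
    · exact fun c hc => hP₁H (hDP₁ (hCD hc))
    · rintro a (ha | ha)
      · exact hsqP₁ a ha
      · set p := x⁻¹ * a with hp
        have hpP := (memP₁.mp ha).1
        have h1 := hcommC p ha
        have h2 := hconjP p hpP _ hx2C
        have h3 := hsqP₁ p ha
        have h4 : a * a = (x * p * x⁻¹ * p⁻¹) * (p * (x * x) * p⁻¹) * (p * p) := by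
          rw [hp]; group
        rw [h4]
        exact C.mul_mem (C.mul_mem h1 h2) h3
    · rintro h (hh | hh) c hc
      · exact hconjP h ((memP₁.mp hh).1) c hc
      · have h1 := hconjP _ ((memP₁.mp hh).1) c hc
        have h2 := hconjx _ h1
        have h3 : h * c * h⁻¹ = x * (x⁻¹ * h * c * (x⁻¹ * h)⁻¹) * x⁻¹ := by group
        rw [h3]
        exact h2
  have hb := card_le_of_sectional hsec hsec'
  -- numerics
  have hP₁card : Nat.card P₁ = 4 * Nat.card D := by
    rw [hP₁, card_pre hDP, hfix]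
  have hCcard : Nat.card C = Nat.card (fixS (actM P x)) * Nat.card K := by
    rw [hC, card_pre hKD]
  have hDcard : Nat.card (MM P) * Nat.card K = Nat.card D := card_sc hKD
  have hHge : 2 * Nat.card P₁ ≤ Nat.card H := by
    obtain ⟨k, hk⟩ := Subgroup.card_dvd_of_le hP₁H
    have hpos : 0 < Nat.card H := Nat.card_pos
    have hpos' : 0 < Nat.card P₁ := Nat.card_pos
    have hk2 : k ≠ 1 := by
      rintro rfl
      rw [mul_one] at hk
      have heq : P₁ = H := Subgroup.eq_of_le_of_card_ge hP₁H hk.le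
      have hxP₁ : x ∈ P₁ := heq ▸ hxH
      exact hxP (hP₁P hxP₁)
    have hk0 : k ≠ 0 := by
      rintro rfl
      omega
    rw [hk, mul_comm]
    exact Nat.mul_le_mul_left _ (by omega)
  have hKpos : 0 < Nat.card K := Nat.card_pos
  have h1 : 2 * (4 * (Nat.card (MM P) * Nat.card K)) ≤
      2 ^ 4 * (Nat.card (fixS (actM P x)) * Nat.card K) := by
    rw [hDcard, ← hCcard, ← hP₁card]
    exact hHge.trans hb
  have h2 : 8 * Nat.card (MM P) * Nat.card K ≤ 16 * Nat.card (fixS (actM P x)) * Nat.card K := by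
    calc 8 * Nat.card (MM P) * Nat.card K = 2 * (4 * (Nat.card (MM P) * Nat.card K)) := by ring
      _ ≤ 2 ^ 4 * (Nat.card (fixS (actM P x)) * Nat.card K) := h1
      _ = _ := by ring
  have h3 := Nat.le_of_mul_le_mul_right h2 hKpos
  omega

/-- Adjusting a lift. -/
lemma exists_good_lift [Finite X] {x : X} (hx : x * x ∈ P)
    (hfree : ∀ u, actV P x u = u → ∃ v, u = v * actV P x v) :
    ∃ y ∈ P, (x * y) * (x * y) ∈ sqs P := by
  have hfix : actV P x (scMk (sqs P) (x * x) hx) = scMk (sqs P) (x * x) hx := by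
    rw [scAct_mk]
    apply scMk_congr
    group
  obtain ⟨v, hv⟩ := hfree _ hfix
  obtain ⟨y, hy, rfl⟩ := scMk_surj v
  refine ⟨y, hy, ?_⟩
  have hm : (x * y) * (x * y) ∈ P := by
    have h1 := hPn.conj_mem y hy x
    have h2 : (x * y) * (x * y) = (x * y * x⁻¹) * (x * x) * y := by group
    rw [h2]
    exact P.mul_mem (P.mul_mem h1 hx) hy
  rw [← scMk_eq_one_iff (A := sqs P) (B := P) (hy := hm)]
  have h2 : scMk (sqs P) ((x * y) * (x * y)) hm =
      actV P x (scMk (sqs P) y hy) * scMk (sqs P) (x * x) hx * scMk (sqs P) y hy := by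
    rw [scAct_mk, scMk_mul, scMk_mul]
    apply scMk_congr
    group
  rw [h2, hv]
  set w := scMk (sqs P) y hy
  set t := actV P x w
  have hcomm := comm_of_sq (V_sq (P := P))
  calc t * (w * t) * w = t * (t * w) * w := by rw [hcomm w t]
    _ = (t * t) * (w * w) := by group
    _ = 1 := by rw [V_sq, V_sq, one_mul]

end Cfsg.Agent.Lib.SecRank4.Step
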